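import Cfsg.Agent.H63.KgvSpec
import Cfsg.Agent.H34.KgvA

/-! Tower KGV: division by `p`. -/

set_option autoImplicit false

namespace H44.KgvPd

open Finset Cfsg ComplexConjugate H63.Kgv H28 H40 H34

universe u

variable {p : ℕ} [hp : Fact p.Prime]

theorem sum_ee (c : ZMod p) : ∑ t : ZMod p, ee p (t * c) = if c = 0 then (p : ℂ) else 0 := by
  have := AddChar.sum_mulShift (R := ZMod p) (R' := ℂ) c (ZMod.isPrimitive_stdAddChar p)
  rw [ZMod.card] at this
  rw [this]
  split_ifs <;> simp

theorem ee_pow (c : ZMod p) : ee p c ^ p ^ 1 = 1 := by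
  rw [pow_one, ← AddChar.map_nsmul_eq_pow, nsmul_eq_mul, ZMod.natCast_self, zero_mul,
    AddChar.map_zero_eq_one]

theorem fourier (m : ZMod p → ℂ) (j : ZMod p) :
    ∑ t : ZMod p, ee p (t * -j) * ∑ c : ZMod p, ee p (t * c) * m c = p * m j := by
  have : ∀ t : ZMod p, ee p (t * -j) * ∑ c : ZMod p, ee p (t * c) * m c =
      ∑ c : ZMod p, ee p (t * (c - j)) * m c := by
    intro t
    rw [mul_sum]
    refine sum_congr rfl fun c _ => ?_
    rw [← mul_assoc, ← AddChar.map_add_eq_mul]
    congr 2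
    ring
  simp_rw [this]
  rw [sum_comm]
  simp_rw [← sum_mul, sum_ee, sub_eq_zero]
  simp

theorem dvd_sub (m : ZMod p → ℤ) (a : ZMod p → ℂ) (ha : ∀ t, t ≠ 0 → IsIntegral ℤ (a t))
    (h : ∀ t, t ≠ 0 → (p : ℂ) * a t = ∑ c : ZMod p, ee p (t * c) * m c) (j : ZMod p) :
    (p : ℤ) ∣ m j - m 0 := by
  have p0 : (p : ℂ) ≠ 0 := by exact_mod_cast hp.out.ne_zero
  apply PNil.dvd_int hp.out
  have e : ((m j - m 0 : ℤ) : ℂ) = ∑ t : ZMod p, (ee p (t * -j) - 1) * (if t = 0 then 0 else a t) := by
    apply mul_left_cancel₀ p0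
    have h1 := fourier (fun c => (m c : ℂ)) j
    have h2 := fourier (fun c => (m c : ℂ)) (0 : ZMod p)
    rw [Int.cast_sub, mul_sub, ← h1, ← h2, ← sum_sub_distrib, mul_sum]
    refine sum_congr rfl fun t _ => ?_
    by_cases ht : t = 0
    · simp [ht]
    · rw [if_neg ht, ← h t ht, neg_zero, mul_zero, show ee p 0 = 1 from AddChar.map_zero_eq_one _]
      ring
  rw [e]
  refine pnil_sum _ _ fun t _ => (pnil_sub_one hp.out (ee_pow _)).mul_right ?_
  split_ifs with ht
  · exact isIntegral_zero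
  · exact ha t ht

theorem job : PdSt.{u} := by
  intro p hp E _ _ f hE hi ⟨Θ, hΘ, h⟩
  have p0 : (p : ℂ) ≠ 0 := by exact_mod_cast hp.out.ne_zero
  refine ⟨fun c => (p : ℂ)⁻¹ • (Θ c - Θ 0), fun c => isGeneralizedCharacter_iff.2 ⟨fun g x => ?_,
    fun ψ hψ => ?_⟩, fun t ht y => ?_⟩
  · simp only [Pi.smul_apply, Pi.sub_apply, (hΘ c).isClassFunction g x, (hΘ 0).isClassFunction g x]
  · choose m hm using fun c => (hΘ c).classInner_int hψ.isGeneralizedCharacter
    have key : ∀ t, t ≠ 0 → (p : ℂ) * classInner (f t) ψ = ∑ c : ZMod p, ee p (t * c) * m c := by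
      intro t ht
      have : (p : ℂ) • f t = ∑ c : ZMod p, ee p (t * c) • Θ c := by
        funext y
        simpa [Finset.sum_apply] using h t ht y
      rw [← classInner_smul_left, this, classInner_sum_left]
      exact sum_congr rfl fun c _ => by rw [classInner_smul_left, hm]
    obtain ⟨n, hn⟩ := dvd_sub m (fun t => classInner (f t) ψ) (fun t ht => by
      refine isIntegral_of_coprime ((Nat.Prime.coprime_iff_not_dvd hp.out).2 hE) ?_ ?_
      · rw [key t ht]
        exact IsIntegral.sum _ fun c _ => (IsIntegral.of_pow (pow_pos hp.out.pos 1)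
          (by rw [ee_pow]; exact isIntegral_one)).mul (isIntegral_intCast _)
      · have c0 : (Nat.card E : ℂ) ≠ 0 := by exact_mod_cast Nat.card_pos.ne'
        rw [classInner, mul_inv_cancel_left₀ c0]
        exact IsIntegral.sum _ fun y _ => (hi t ht y).mul
          (isIntegral_conj (hψ.isGeneralizedCharacter.isIntegral y))) key c
    refine ⟨n, ?_⟩
    rw [classInner_smul_left, classInner_sub_left, hm, hm, ← Int.cast_sub, hn]
    push_cast
    rw [inv_mul_cancel_left₀ p0]
  · apply mul_left_cancel₀ p0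
    have h0 : ∑ c : ZMod p, ee p (t * c) = 0 := by
      simp_rw [mul_comm t]
      rw [sum_ee, if_neg ht]
    have := h t ht y
    simp only at this
    rw [this, mul_sum]
    calc _ = ∑ c : ZMod p, ee p (t * c) * Θ c y - (∑ c : ZMod p, ee p (t * c)) * Θ 0 y := by
          rw [h0, zero_mul, sub_zero]
      _ = _ := by
          rw [sum_mul, ← sum_sub_distrib]
          refine sum_congr rfl fun c _ => ?_
          simp only [Pi.smul_apply, Pi.sub_apply, smul_eq_mul]
          field_simp

end H44.KgvPd
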