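import Cfsg.Agent.H44.CD3
import Cfsg.Agent.H3.FrattiniP
import Cfsg.Agent.H9.PBasic
import Cfsg.Agent.H4.HallBasic

/-! Groups with character degrees `1` and `p` (Isaacs 12.11). -/

set_option autoImplicit false
set_option linter.style.haveILetI false

open Cfsg H28 H32 H33
open scoped commutatorElement

namespace H44

theorem cover_count {M : Type*} [Group M] [Finite M] {p : ℕ} (S : Subgroup M) [S.Normal]
    (T : ℕ → Subgroup M) (hS : S ≠ ⊤) (hT : ∀ k < p, p ≤ (T k).index)
    (hc : ∀ l, l ∉ S → ∃ k < p, l ∈ T k) {k : ℕ} (hk : k < p) : (T k).index = p ∧ ¬ T k ≤ S := by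
  classical
  haveI := Fintype.ofFinite M
  let t : ℕ → ℕ := fun k => (Finset.univ.filter fun l => l ∈ T k ∧ l ∉ S).card
  obtain ⟨c, hc'⟩ : ∃ c, S.index = c + 2 :=
    ⟨S.index - 2, by have := Subgroup.one_lt_index_of_ne_top hS; omega⟩
  have hcard : ∀ H : Subgroup M, Nat.card H = (Finset.univ.filter (· ∈ H)).card := fun H =>
    Nat.subtype_card _ (by simp)
  have h1 : ∀ H : Subgroup M, (Finset.univ.filter fun l => l ∈ H ∧ l ∉ S).card +
      Nat.card (S ⊓ H : Subgroup M) = Nat.card H := fun H => by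
    rw [hcard, hcard, ← Finset.card_filter_add_card_filter_not (p := (· ∉ S)) (s := Finset.univ.filter (· ∈ H)),
      Finset.filter_filter, Finset.filter_filter]
    congr 2; ext; simp [and_comm]
  have h2 : ∀ k, (c + 2) * t k ≤ Nat.card (T k) * (c + 1) := fun k => by
    have e1 := h1 (T k)
    have e2 := H4.card_mul_relIndex (inf_le_right : S ⊓ T k ≤ T k)
    have e3 : (S ⊓ T k).relIndex (T k) ≤ c + 2 := by
      rw [Subgroup.inf_relIndex_right, ← hc']
      exact Nat.le_of_dvd (by omega) (Subgroup.relIndex_dvd_index_of_normal _ _)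
    change t k + _ = _ at e1
    nlinarith
  have h3 : ∀ k < p, p * Nat.card (T k) ≤ Nat.card M := fun k hk => by
    rw [← (T k).index_mul_card]; exact Nat.mul_le_mul_right _ (hT k hk)
  have h4 : Nat.card M * (c + 1) ≤ ∑ k ∈ Finset.range p, (c + 2) * t k := by
    have e1 := h1 ⊤
    have e2 := S.card_mul_index
    have e3 : (Finset.univ.filter fun l => l ∈ (⊤ : Subgroup M) ∧ l ∉ S).card ≤
        ∑ k ∈ Finset.range p, t k :=
      le_trans (Finset.card_le_card fun l hl => by
        obtain ⟨k, hk, h⟩ := hc l (Finset.mem_filter.1 hl).2.2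
        simpa using ⟨k, hk, h, (Finset.mem_filter.1 hl).2.2⟩) Finset.card_biUnion_le
    rw [inf_top_eq, Subgroup.card_top] at e1
    rw [← Finset.mul_sum]
    rw [hc'] at e2
    nlinarith
  have h5 : ∀ k ∈ Finset.range p, p * ((c + 2) * t k) ≤ Nat.card M * (c + 1) := fun k hk => by
    nlinarith [h2 k, h3 k (Finset.mem_range.1 hk)]
  have h6 := (Finset.sum_eq_sum_iff_of_le h5).1 (le_antisymm (Finset.sum_le_sum h5) (by
    rw [Finset.sum_const, Finset.card_range, smul_eq_mul, ← Finset.mul_sum]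
    exact Nat.mul_le_mul_left _ h4)) k (Finset.mem_range.2 hk)
  have h0 : 0 < Nat.card M := Nat.card_pos
  refine ⟨le_antisymm ?_ (hT k hk), fun h => ?_⟩
  · have e := (T k).index_mul_card
    have : Nat.card M ≤ p * Nat.card (T k) := by nlinarith [h2 k]
    exact Nat.le_of_mul_le_mul_right (e ▸ this) Nat.card_pos
  · have : t k = 0 := Finset.card_eq_zero.2 (Finset.filter_eq_empty_iff.2 fun l _ hl => hl.2 (h hl.1))
    rw [this] at h6
    nlinarith

variable {G : Type*} [Group G]

/-- `a ↦ [g, a]` on an abelian normal subgroup -/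
def commHom {A : Subgroup G} [hA : A.Normal] (h : ∀ a ∈ A, ∀ b ∈ A, a * b = b * a) (g : G) :
    A →* A :=
  MonoidHom.mk' (fun a => ⟨g * a * g⁻¹ * (a : G)⁻¹, mul_mem (hA.conj_mem _ a.2 g) (inv_mem a.2)⟩)
    fun a b => Subtype.ext (by
      have := h _ (inv_mem a.2) _ (mul_mem (hA.conj_mem _ b.2 g) (inv_mem b.2))
      simp only [Subgroup.coe_mul]
      rw [mul_assoc _ (a : G)⁻¹, this]; group)

theorem commHom_apply {A : Subgroup G} [A.Normal] (h : ∀ a ∈ A, ∀ b ∈ A, a * b = b * a) (g : G)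
    (a : A) : (commHom h g a : G) = g * a * g⁻¹ * (a : G)⁻¹ := rfl

theorem mem_ker_commHom {A : Subgroup G} [A.Normal] (h : ∀ a ∈ A, ∀ b ∈ A, a * b = b * a) {g : G}
    {a : A} : a ∈ (commHom h g).ker ↔ g * a = a * g := by
  rw [MonoidHom.mem_ker, Subtype.ext_iff, commHom_apply, Subgroup.coe_one, mul_inv_eq_one,
    mul_inv_eq_iff_eq_mul]

/-- the linear characters trivial on a subgroup -/
def annih (K : Subgroup G) : Subgroup (G →* ℂˣ) where
  carrier := {l | ∀ k ∈ K, l k = 1}
  one_mem' := fun _ _ => rfl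
  mul_mem' := fun ha hb k hk => by simp [ha k hk, hb k hk]
  inv_mem' := fun ha k hk => by simp [ha k hk]

theorem index_annih [Finite G] (hc : ∀ a b : G, a * b = b * a) (K : Subgroup G) :
    (annih K).index = Nat.card K := by
  letI : CommGroup G := { ‹Group G› with mul_comm := hc }
  have h1 : Nat.card (annih K) = K.index := by
    rw [Subgroup.index_eq_card, ← CommGroup.card_domRestrictHom_ker ℂ K]
    refine Nat.card_congr (Equiv.subtypeEquivRight fun θ => ?_)
    simp [MonoidHom.ext_iff, annih]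
  have h2 := (annih K).card_mul_index
  rw [h1, CommGroup.card_monoidHom_of_hasEnoughRootsOfUnity G ℂ, ← K.index_mul_card] at h2
  exact Nat.eq_of_mul_eq_mul_left (Nat.pos_of_ne_zero K.index_ne_zero_of_finite) h2

theorem mem_annih_range {A : Subgroup G} [A.Normal] (h : ∀ a ∈ A, ∀ b ∈ A, a * b = b * a) {g : G}
    {l : A →* ℂˣ} : l ∈ annih (commHom h g).range ↔ g ∈ inertia (homToFun A l) := by
  rw [mem_inertia_iff]
  refine ⟨fun hl a => ?_, ?_⟩
  · have := hl _ ⟨a, rfl⟩
    rw [show commHom h g a = ⟨g * a * g⁻¹, Subgroup.Normal.conj_mem inferInstance _ a.2 g⟩ * a⁻¹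
      from rfl, map_mul, map_inv, mul_inv_eq_one] at this
    exact congrArg Units.val this
  · rintro hl _ ⟨a, rfl⟩
    rw [show commHom h g a = ⟨g * a * g⁻¹, Subgroup.Normal.conj_mem inferInstance _ a.2 g⟩ * a⁻¹
      from rfl, map_mul, map_inv, mul_inv_eq_one]
    exact Units.ext (hl a)

variable [Finite G]

theorem index_center_of_two {p : ℕ} (hp : p.Prime) (h : ∀ d ∈ charDegrees G, d = 1 ∨ d = p)
    (hm : p ∈ charDegrees G) (hP : IsPGroup p (commutator G)) {A : Subgroup G} [A.Normal]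
    (hA : ∀ a ∈ A, ∀ b ∈ A, a * b = b * a) (hi : A.index = p ^ 2) (hG : commutator G ≤ A)
    (hpow : ∀ g, g ^ p ∈ A)
    (hno : ∀ B : Subgroup G, B.Normal → (∀ a ∈ B, ∀ b ∈ B, a * b = b * a) → B.index ≠ p) :
    (Subgroup.center G).index = p ^ 3 := by
  haveI := Fact.mk hp
  haveI := Fintype.ofFinite G
  haveI := Fintype.ofFinite A
  haveI := finite_hom A
  have hA' : ∀ a b : A, a * b = b * a := fun a b => Subtype.ext (hA _ a.2 _ b.2)
  have hn : ∀ H : Subgroup G, A ≤ H → H.Normal := fun H h =>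
    Subgroup.Normal.of_commutator_le G (hG.trans h)
  have hidx : ∀ g, g ∉ A → (A ⊔ Subgroup.zpowers g).index = p := fun g hg => by
    have e1 := H9.card_sup_zpowers hg (hpow g)
    have e2 := (A ⊔ Subgroup.zpowers g).index_mul_card
    rw [e1, ← A.index_mul_card, hi, ← mul_assoc, sq] at e2
    exact Nat.eq_of_mul_eq_mul_right hp.pos (Nat.eq_of_mul_eq_mul_right Nat.card_pos e2)
  have hker : ∀ g, g ∉ A → (commHom hA g).ker ≠ ⊤ := fun g hg e =>
    hno _ (hn _ le_sup_left) (fun a ha b hb => by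
      obtain ⟨a, ha', _, ⟨i, rfl⟩, rfl⟩ := Subgroup.mem_sup_of_normal_left.1 ha
      obtain ⟨b, hb', _, ⟨j, rfl⟩, rfl⟩ := Subgroup.mem_sup_of_normal_left.1 hb
      have h1 : ∀ a ∈ A, Commute g a := fun a ha =>
        (mem_ker_commHom hA (a := ⟨a, ha⟩)).1 (e ▸ Subgroup.mem_top _)
      exact ((Commute.mul_left (hA a ha' b hb') ((h1 b hb').zpow_left i)).mul_right
        (((h1 a ha').symm.zpow_right j).mul_left (Commute.zpow_zpow_self g i j))).eq) (hidx g hg)
  have hS : ∀ g, (annih (commHom hA g).range).index = (commHom hA g).ker.index := fun g => by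
    rw [index_annih hA', Subgroup.index_ker]
  have hge : ∀ g, g ∉ A → p ≤ (annih (commHom hA g).range).index := fun g hg => by
    have h1 : IsPGroup p (commHom hA g).range := (hP.comap_subtype (K := A)).to_le (by
      rintro _ ⟨a, rfl⟩; exact comm_mem_commutator g a)
    obtain ⟨k, hk⟩ := IsPGroup.iff_card.1 h1
    rw [index_annih hA', hk]
    refine Nat.le_self_pow (fun e => hker g hg ?_) p
    rw [← Subgroup.index_eq_one, Subgroup.index_ker, hk, e, pow_zero]
  have key : ∀ x y, x ∉ A → y ∉ A ⊔ Subgroup.zpowers x → (commHom hA y).ker.index = p ∧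
      ¬ annih (commHom hA y).range ≤ annih (commHom hA x).range := fun x y hx hy => by
    haveI : (annih (commHom hA x).range).Normal := ⟨fun l hl m k hk => by simp [hl k hk]⟩
    have := cover_count (p := p) (annih (commHom hA x).range)
      (fun k => annih (commHom hA (x ^ k * y)).range) (fun e => by
        have := hge x hx
        rw [e, Subgroup.index_top] at this
        exact hp.one_lt.not_ge this) (fun k _ => hge _ fun h => hy (by
          simpa using mul_mem (inv_mem (pow_mem (Subgroup.mem_sup_right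
            (Subgroup.mem_zpowers x)) k)) (Subgroup.mem_sup_left h))) (fun l hl => ?_) hp.pos
    · simpa [hS] using this
    simp only [mem_annih_range] at hl ⊢
    have hirr : IsIrrCharacter A (homToFun A l) := isIrrCharacter_of_hom l
    have hAT := le_inertia hirr.isClassFunction
    generalize hT : inertia (homToFun A l) = T at hl hAT
    haveI := hn T hAT
    have h1 : ¬ T ≤ A := fun hle => by
      have := h _ (mem_cd ((isIrrCharacter_indFun_iff hirr).2 (hT ▸ hle)))
      rw [hirr.isCharacter.charDegree_indFun, show charDegree (homToFun A l) = 1 from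
        charDegree_hom l, hi, mul_one] at this
      have := hp.one_lt
      rcases ‹_ ∨ _› with h | h <;> nlinarith
    have h2 : T ⊔ Subgroup.zpowers x = ⊤ := by
      obtain ⟨t, ht, htA⟩ := SetLike.not_le_iff_exists.1 h1
      exact (H3.isCoatom_of_index_prime (hidx t htA ▸ hp)).2 _ (lt_of_le_of_lt
        (sup_le hAT (Subgroup.zpowers_le.2 ht)) (lt_of_le_of_ne le_sup_left fun e =>
          hl (e ▸ Subgroup.mem_sup_right (Subgroup.mem_zpowers x))))
    obtain ⟨_, ⟨i, rfl⟩, t, ht, rfl⟩ := Subgroup.mem_sup_of_normal_right.1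
      (show y ∈ Subgroup.zpowers x ⊔ T by rw [sup_comm, h2]; trivial)
    have h0 : (0 : ℤ) < p := by exact_mod_cast hp.pos
    refine ⟨((-i) % p).toNat, by have := Int.emod_lt_of_pos (-i) h0; omega, ?_⟩
    rw [← zpow_natCast, Int.toNat_of_nonneg (Int.emod_nonneg _ h0.ne'), ← mul_assoc, ← zpow_add,
      Int.emod_def, show -i - p * (-i / p) + i = p * -(-i / p) by ring, zpow_mul, zpow_natCast]
    exact mul_mem (zpow_mem (hAT (hpow x)) _) ht
  have hex : ∀ x, x ∉ A → ∃ y, y ∉ A ⊔ Subgroup.zpowers x := fun x hx => by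
    by_contra hc; push Not at hc
    have := hidx x hx
    rw [(Subgroup.eq_top_iff' _).2 hc, Subgroup.index_top] at this
    exact hp.one_lt.ne this
  have hsymm : ∀ x y, x ∉ A → y ∉ A ⊔ Subgroup.zpowers x → x ∉ A ⊔ Subgroup.zpowers y :=
    fun x y hx hy h => hy (by
      have hy' : y ∉ A := fun h => hy (Subgroup.mem_sup_left h)
      rw [(H3.isCoatom_of_index_prime (hidx x hx ▸ hp)).le_iff.1
        (sup_le le_sup_left (Subgroup.zpowers_le.2 h)) |>.resolve_left
          (H3.isCoatom_of_index_prime (hidx y hy' ▸ hp)).1 |>.symm]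
      exact Subgroup.mem_sup_right (Subgroup.mem_zpowers y))
  have hall : ∀ g, g ∉ A → (commHom hA g).ker.index = p := fun g hg => by
    obtain ⟨x, hx⟩ := hex g hg
    exact (key x g (fun h => hx (Subgroup.mem_sup_left h)) (hsymm g x hg hx)).1
  obtain ⟨x, hx⟩ : ∃ x, x ∉ A := by
    by_contra hc; push Not at hc
    rw [(Subgroup.eq_top_iff' _).2 hc, Subgroup.index_top] at hi
    exact (Nat.one_lt_pow two_ne_zero hp.one_lt).ne hi
  obtain ⟨y, hy⟩ := hex x hx
  have hy' : y ∉ A := fun h => hy (Subgroup.mem_sup_left h)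
  have hxy : x * y ∉ A := fun h => hy (by
    simpa using mul_mem (inv_mem (Subgroup.mem_sup_right (Subgroup.mem_zpowers x)))
      (Subgroup.mem_sup_left h))
  have hr : ∀ g, g ∉ A → ∀ b ∈ (commHom hA g).range, b ≠ 1 →
      Subgroup.zpowers b = (commHom hA g).range := fun g hg b hb hb1 => by
    have h1 : Nat.card (commHom hA g).range = p := by rw [← Subgroup.index_ker, hall g hg]
    refine Subgroup.eq_of_le_of_card_ge (Subgroup.zpowers_le.2 hb) ?_
    rw [h1, Nat.card_zpowers]
    exact Nat.le_of_eq (((Nat.dvd_prime hp).1 (h1 ▸ Subgroup.orderOf_dvd_natCard _ hb)).resolve_left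
      (by simpa using hb1)).symm
  have hk : (commHom hA x).ker = (commHom hA y).ker := by
    by_contra hne
    have c1 := H3.isCoatom_of_index_prime (hall x hx ▸ hp)
    have c2 := H3.isCoatom_of_index_prime (hall y hy' ▸ hp)
    obtain ⟨a, ha, ha'⟩ := SetLike.not_le_iff_exists.1 fun h =>
      hne ((c1.le_iff.1 h).resolve_left c2.1).symm
    obtain ⟨b, hb, hb'⟩ := SetLike.not_le_iff_exists.1 fun h =>
      hne ((c2.le_iff.1 h).resolve_left c1.1)
    have e1 : commHom hA (x * y) b = commHom hA x b := Subtype.ext (by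
      rw [commHom_apply, commHom_apply, mul_assoc x, (mem_ker_commHom hA).1 hb]; group)
    have e2 : commHom hA (x * y) a = commHom hA y a := Subtype.ext (by
      have e := hA _ (hG (comm_mem_commutator x y)) _
        (Subgroup.Normal.conj_mem inferInstance _ a.2 y)
      have e' := (mem_ker_commHom hA).1 ha
      rw [commHom_apply, commHom_apply]
      calc x * y * a * (x * y)⁻¹ * (a : G)⁻¹ = x * y * x⁻¹ * y⁻¹ * (y * (x * a * x⁻¹) * y⁻¹) *
            (x * y * x⁻¹ * y⁻¹)⁻¹ * (a : G)⁻¹ := by group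
        _ = _ := by rw [e', mul_inv_cancel_right, e]; group)
    refine (key x y hx hy).2 (le_of_eq (congrArg annih ?_))
    rw [← hr y hy' _ ⟨a, rfl⟩ ha', ← hr x hx _ ⟨b, rfl⟩ hb', ← e1, ← e2,
      hr _ hxy _ ⟨a, rfl⟩ (e2 ▸ ha'), hr _ hxy _ ⟨b, rfl⟩ (e1 ▸ hb')]
  have hZA : Subgroup.center G ≤ A := fun z hz => by_contra fun h => hker z h
    (eq_top_iff.2 fun a _ => (mem_ker_commHom hA).2 (Subgroup.mem_center_iff.1 hz a).symm)
  have hZ : (Subgroup.center G).subgroupOf A = (commHom hA x).ker := by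
    ext a
    refine ⟨fun h => (mem_ker_commHom hA).2 (Subgroup.mem_center_iff.1 h x), fun h => ?_⟩
    have h1 : A ⊔ Subgroup.zpowers x ≤ Subgroup.centralizer {(a : G)} := sup_le
      (fun b hb => Subgroup.mem_centralizer_singleton_iff.2 (hA _ hb _ a.2))
      (Subgroup.zpowers_le.2 (Subgroup.mem_centralizer_singleton_iff.2 ((mem_ker_commHom hA).1 h)))
    have h2 := (H3.isCoatom_of_index_prime (hidx x hx ▸ hp)).2 _ (lt_of_le_of_ne h1 fun e =>
      hy (e ▸ Subgroup.mem_centralizer_singleton_iff.2 ((mem_ker_commHom hA).1 (hk ▸ h))))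
    exact Subgroup.mem_center_iff.2 fun g =>
      Subgroup.mem_centralizer_singleton_iff.1 (h2 ▸ Subgroup.mem_top g)
  rw [← Subgroup.relIndex_mul_index hZA, Subgroup.relIndex, hZ, hall x hx, hi]; ring

/-- Isaacs 12.11 -/
theorem degrees_one_prime {p : ℕ} (hp : p.Prime) (h : ∀ d ∈ charDegrees G, d = 1 ∨ d = p)
    (hm : p ∈ charDegrees G) :
    (∃ A : Subgroup G, A.Normal ∧ (∀ a ∈ A, ∀ b ∈ A, a * b = b * a) ∧ A.index = p) ∨
      (Subgroup.center G).index = p ^ 3 := by
  refine (em _).imp_right fun hno => ?_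
  obtain ⟨q, e, hq, he, P, B, _, _, h1, h2, -, -, h3⟩ :=
    (two_degrees h hm hp.one_lt.ne').resolve_left hno
  obtain rfl : q = p := (Nat.Prime.pow_eq_iff hp).1 he.symm |>.1
  have hP : commutator G ≤ P := Subgroup.commutator_le.2 fun a _ b _ => by
    obtain ⟨x, hx, z, hz, rfl⟩ := Subgroup.mem_sup_of_normal_left.1 (h3 ▸ Subgroup.mem_top a)
    rw [commutatorElement_def, mul_assoc x z, ← Subgroup.mem_center_iff.1 (h2 hz),
      show x * (b * z) * (x * z)⁻¹ * b⁻¹ = x * (b * x⁻¹ * b⁻¹) by group]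
    exact mul_mem hx (Subgroup.Normal.conj_mem inferInstance _ (inv_mem hx) b)
  haveI := isSolvable_of_two _ rfl q h
  obtain ⟨r, K, N, _, _, hr, -, -, hN, -, -, -, ⟨a, hA⟩ | hB⟩ :=
    top_cases _ le_rfl (not_le_commutator_of_isSolvable hm hp.one_lt.ne')
  swap
  · exact absurd ⟨N, inferInstance, hB.comm_of_two hr h⟩ hno
  have e1 := (h _ hA.mem_cd).resolve_left (hA.one_lt hr).ne'
  obtain rfl : r = q := (Nat.Prime.pow_eq_iff hp).1 e1 |>.1
  refine index_center_of_two hp h hm (h1.to_le hP) (comm_of_cd_subgroup fun d hd => ?_)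
    (by rw [hA.index_eq, e1]) hN hA.pow_mem fun B h1 h2 h3 => hno ⟨B, h1, h2, h3⟩
  obtain ⟨x, hx, y, hy, -, h4⟩ := hA.over hd
  have h5 : r * d ^ 2 ∣ r * r := e1 ▸ h4.trans (mul_dvd_mul
    (by rcases h x hx with rfl | rfl <;> simp [e1]) (by rcases h y hy with rfl | rfl <;> simp [e1]))
  rcases (Nat.dvd_prime hp).1 (Nat.dvd_of_mul_dvd_mul_left hp.pos h5) with h6 | h6
  · exact (pow_eq_one_iff.1 h6).resolve_right two_ne_zero
  · exact absurd ((Nat.Prime.pow_eq_iff hp).1 h6).2 (by decide)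

end H44
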