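import Cfsg.Agent.H2.KpSpec

/-! Tower KP, job PEEL: peeling invariant sets of blocks. -/

set_option autoImplicit false
set_option linter.unusedSectionVars false

namespace H44.KpPeel
open Equiv H2.Kp

variable {Γ α β : Type} [Group Γ] [Finite Γ] [Fintype α] [Fintype β] [DecidableEq β] {w : ℕ}

theorem card_over (S : Sys Γ α β w) (U : Finset β) :
    Fintype.card {a // S.π a ∈ U} = w * U.card := by
  rw [Fintype.card_subtype, Finset.card_eq_sum_card_fiberwise (f := S.π) (t := U)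
    (fun a ha => Finset.mem_coe.2 (Finset.mem_filter.1 (Finset.mem_coe.1 ha)).2)]
  rw [Finset.sum_congr rfl (g := fun _ => w) fun b hb => ?_]
  · simp [mul_comm]
  · refine Eq.trans ?_ (S.fib b)
    rw [Finset.filter_filter]
    congr 1
    exact Finset.filter_congr fun a _ => ⟨fun h => h.2, fun h => ⟨h ▸ hb, h⟩⟩

/-- the action of `K` on the points over an invariant set of blocks -/
theorem exists_hom (S : Sys Γ α β w) (K : Subgroup Γ) (U : Finset β)
    (hU : ∀ x ∈ K, ∀ b ∈ U, S.φ x b ∈ U) :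
    ∃ ψ : K →* Perm {a // S.π a ∈ U}, ∀ x : K, ψ x = 1 ↔ x.1 ∈ S.fb K U := by
  have h : ∀ x : K, ∀ a, S.π (S.ρ x a) ∈ U ↔ S.π a ∈ U := fun x a => by
    refine ⟨fun m => ?_, fun m => by rw [S.eqv]; exact hU x x.2 _ m⟩
    have := hU _ (K.inv_mem x.2) _ m
    rw [← S.eqv, map_inv] at this
    simpa using this
  refine ⟨MonoidHom.mk' (fun x => (S.ρ x).subtypePerm (h x)) fun x y => ?_, fun x => ?_⟩
  · ext a
    show S.ρ (x.1 * y.1) a.1 = S.ρ x.1 (S.ρ y.1 a.1)
    rw [map_mul, Perm.mul_apply]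
  · rw [Sys.mem_fb]
    refine ⟨fun m => ⟨x.2, fun a ha => ?_⟩, fun m => ?_⟩
    · exact congrArg Subtype.val (DFunLike.congr_fun m ⟨a, ha⟩)
    · ext a
      exact m.2 a.1 a.2

theorem one_block (S : Sys Γ α β w) {κ : Subgroup Γ → ℕ} {g : ℕ → ℕ} {v n : ℕ}
    (hL : Lam κ g v w n) (K : Subgroup Γ) (b : β) (hb : ∀ x ∈ K, S.φ x b = b) :
    κ K ≤ v * κ (S.fb K {b}) := by
  classical
  obtain ⟨ψ, hψ⟩ := exists_hom S K {b} fun x hx c hc => by
    rw [Finset.mem_singleton] at hc ⊢
    rw [hc, hb x hx]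
  refine hL.idx K _ (S.fb_le K _) ?_
  have e : (S.fb K {b}).subgroupOf K = ψ.ker := by
    ext x
    rw [Subgroup.mem_subgroupOf, MonoidHom.mem_ker, hψ]
  rw [Subgroup.relIndex, e, Subgroup.index_ker]
  refine (Subgroup.card_le_card_group _).trans ?_
  rw [Nat.card_eq_fintype_card, Fintype.card_perm, card_over, Finset.card_singleton, mul_one]
  rcases S.w12 with e | e <;> rw [e] <;> decide

theorem all_blocks (S : Sys Γ α β w) {κ : Subgroup Γ → ℕ} {g : ℕ → ℕ} {v n : ℕ}
    (hL : Lam κ g v w n) (m : ℕ) : ∀ K : Subgroup Γ, (∀ x ∈ K, S.φ x = 1) →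
      (S.bs K).card ≤ m → κ K ≤ v ^ m := by
  induction m with
  | zero =>
    intro K _ hm
    have h0 : S.bs K = ∅ := Finset.card_eq_zero.1 (Nat.le_zero.1 hm)
    have : K = ⊥ := by
      rw [eq_bot_iff]
      intro x hx
      rw [Subgroup.mem_bot]
      apply S.inj
      rw [map_one]
      ext a
      by_contra c
      have : S.π a ∈ S.bs K := Sys.mem_bs.2 ⟨x, hx, a, rfl, c⟩
      rw [h0] at this
      exact Finset.notMem_empty _ this
    rw [this, pow_zero]
    exact hL.bot
  | succ m ih =>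
    intro K hK hm
    rcases Nat.lt_or_ge m (S.bs K).card with h | h
    · obtain ⟨b, hb⟩ := Finset.card_pos.1 (Nat.zero_lt_of_lt h)
      refine (one_block S hL K b fun x hx => by rw [hK x hx]; rfl).trans ?_
      rw [pow_succ']
      refine Nat.mul_le_mul_left v (ih _ (fun x hx => hK x (S.fb_le K _ hx)) ?_)
      have h1 := Finset.card_le_card (S.bs_fb K {b})
      rw [Finset.card_sdiff_of_subset (Finset.singleton_subset_iff.2 hb),
        Finset.card_singleton] at h1
      omega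
    · exact (ih K hK h).trans (Nat.pow_le_pow_right hL.one (Nat.le_succ m))

theorem jobPeel : Peel := by
  intro Γ α β _ _ _ _ _ w S κ g v n hL K
  refine ⟨fun U hU hn => ?_, fun b hb => one_block S hL K b hb,
    fun hK => all_blocks S hL _ K hK le_rfl⟩
  obtain ⟨ψ, hψ⟩ := exists_hom S K U hU
  rw [← card_over S U] at hn ⊢
  exact hL.act K _ _ ψ hn (S.fb_le K U) hψ

end H44.KpPeel
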