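/- Maximal subgroups of the simple group of order 168. -/
import Cfsg.Agent.H44.L168b

set_option autoImplicit false

namespace H44.L168

open Subgroup H98

variable {G : Type*} [Group G] [Finite G]

omit [Finite G] in
theorem isCoatom_cj {M : Subgroup G} (hM : IsCoatom M) (g : G) : IsCoatom (cj g M) :=
  ((MulAut.conj g).mapSubgroup.isCoatom_iff M).2 hM

/-- A subgroup with a unique Sylow `p`-subgroup of prime order normalizes it. -/
theorem le_norm_of_card {p m : ℕ} [hp : Fact p.Prime] {M : Subgroup G} (hM : Nat.card M = p * m)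
    (hm : ∀ n ∈ m.divisors, n % p = 1 % p → n = 1) (hm' : ¬ p ∣ m)
    (hP : ∀ P : Sylow p G, Nat.card (P : Subgroup G) = p) :
    ∃ P : Sylow p G, M ≤ normalizer ((P : Subgroup G) : Set G) := by
  obtain ⟨Q⟩ : Nonempty (Sylow p M) := inferInstance
  have hm0 : m ≠ 0 := by rintro rfl; simp at hm'
  have hQ : Nat.card (Q : Subgroup M) = p := by
    rw [Q.card_eq_multiplicity, hM, Nat.factorization_mul hp.out.ne_zero hm0]
    simp [Nat.factorization_eq_zero_of_not_dvd hm', hp.out.factorization_self]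
  have h1 : (Q : Subgroup M).index = m := by
    have := (Q : Subgroup M).card_mul_index
    rw [hQ, hM] at this
    exact Nat.eq_of_mul_eq_mul_left hp.out.pos this
  have h2 := hm _ (Nat.mem_divisors.2 ⟨h1 ▸ Q.card_dvd_index, hm0⟩) (card_sylow_modEq_one p M)
  have : Subsingleton (Sylow p M) := (Nat.card_eq_one_iff_unique.1 h2).1
  have hn : (Q : Subgroup M).Normal := Q.normal_of_subsingleton
  obtain ⟨P, hle⟩ := (Q.isPGroup'.map M.subtype).exists_le_sylow
  have e : (Q : Subgroup M).map M.subtype = P :=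
    eq_of_le_of_card_ge hle (by rw [hP, card_map_of_injective M.subtype_injective, hQ])
  have h3 := le_normalizer_map (H := (Q : Subgroup M)) M.subtype
  rw [normalizer_eq_top, ← MonoidHom.range_eq_map, range_subtype, e] at h3
  exact ⟨P, h3⟩

variable [IsSimpleGroup G] (h : Nat.card G = 168)
include h

theorem isCoatom_of_24 {M : Subgroup G} (hM : Nat.card M = 24) : IsCoatom M := by
  refine ⟨fun e => ?_, fun K hK => by_contra fun hK' => hK.ne ?_⟩
  · rw [e, card_top, h] at hM; omega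
  · exact eq_of_le_of_card_ge hK.le (hM ▸ card_le h hK')

omit [Finite G] [IsSimpleGroup G] in
theorem eq_of_coatom {M K : Subgroup G} (hM : IsCoatom M) (hle : M ≤ K) (hK : Nat.card K ≠ 168) :
    M = K := by
  refine (hM.le_iff.1 hle).resolve_left (fun e => hK ?_) |>.symm
  rw [e, card_top, h]

theorem exists_klein_le (T : Sylow 2 G) : ∃ U : Subgroup G, IsKleinFour U ∧
    (T : Subgroup G) ≤ normalizer U := by
  obtain ⟨U, W, -, -, h1⟩ := exists_kleins h T
  obtain ⟨h2, h3⟩ := (h1 U).2 (Or.inl rfl)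
  exact ⟨U, h3, syl_le_norm h T h3 h2⟩

theorem norm3_le (P : Sylow 3 G) : ∃ K : Subgroup G, Nat.card K = 24 ∧
    normalizer ((P : Subgroup G) : Set G) ≤ K := by
  obtain ⟨T⟩ : Nonempty (Sylow 2 G) := inferInstance
  obtain ⟨U, hU, -⟩ := exists_klein_le h T
  have h1 := card_norm_klein h hU
  generalize normalizer (U : Set G) = K at h1
  obtain ⟨Q⟩ : Nonempty (Sylow 3 K) := inferInstance
  have hQ : Nat.card (Q : Subgroup K) = 3 := by
    rw [Q.card_eq_multiplicity, h1, show (24 : ℕ) = 3 ^ 1 * 8 from rfl,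
      Nat.factorization_mul (by norm_num) (by norm_num), Nat.Prime.factorization_pow Nat.prime_three]
    simp [Nat.factorization_eq_zero_of_not_dvd (show ¬ 3 ∣ 8 by norm_num)]
  obtain ⟨R, hle⟩ := (Q.isPGroup'.map K.subtype).exists_le_sylow
  have e : (Q : Subgroup K).map K.subtype = R :=
    eq_of_le_of_card_ge hle (by rw [card_syl3 h, card_map_of_injective K.subtype_injective, hQ])
  have h3 := le_normalizer_map (H := (Q : Subgroup K)) K.subtype
  rw [e] at h3
  have h4 : 6 ≤ Nat.card (normalizer ((Q : Subgroup K) : Set K)) := by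
    have h5 := (normalizer ((Q : Subgroup K) : Set K)).card_mul_index
    have h6 : _ = (normalizer ((Q : Subgroup K) : Set K)).index := Q.card_eq_index_normalizer
    have h7 : Nat.card (Sylow 3 K) % 3 = 1 % 3 := card_sylow_modEq_one 3 K
    have h8 := card_dvd_of_le (le_normalizer (H := (Q : Subgroup K)))
    rw [← h6, h1] at h5
    rw [hQ] at h8
    obtain ⟨k, hk⟩ := h8
    rw [hk] at h5 ⊢
    rcases k with _ | _ | k <;> omega
  have h5 := eq_of_le_of_card_ge h3
    (by rw [card_norm3 h, card_map_of_injective K.subtype_injective]; exact h4)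
  obtain ⟨g, rfl⟩ := MulAction.exists_smul_eq G R P
  refine ⟨cj g K, by rw [card_cj, h1], ?_⟩
  change normalizer (cj g (R : Subgroup G) : Set G) ≤ _
  rw [← cj_normalizer, ← h5]
  exact cj_mono g (map_subtype_le _)

theorem coatom_cases {M : Subgroup G} (hM : IsCoatom M) : Nat.card M = 24 ∨
    ∃ P : Sylow 7 G, Nat.card M = 21 ∧ M = normalizer ((P : Subgroup G) : Set G) := by
  have : Fact (Nat.Prime 7) := ⟨by norm_num⟩
  have h7 : ∀ m, Nat.card M = 7 * m → (∀ n ∈ m.divisors, n % 7 = 1 % 7 → n = 1) → ¬ 7 ∣ m →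
      ∃ P : Sylow 7 G, Nat.card M = 21 ∧ M = normalizer ((P : Subgroup G) : Set G) :=
    fun m h1 h2 h3 => by
      obtain ⟨P, hP⟩ := le_norm_of_card h1 h2 h3 (card_syl7 h)
      have := eq_of_coatom h hM hP (by rw [card_norm7 h]; norm_num)
      exact ⟨P, this ▸ card_norm7 h P, this⟩
  have h24 : ∀ K : Subgroup G, Nat.card K = 24 → M ≤ K → Nat.card M = 24 := fun K h1 h2 => by
    rw [eq_of_coatom h hM h2 (by omega), h1]
  have h3 : ∀ m, Nat.card M = 3 * m → (∀ n ∈ m.divisors, n % 3 = 1 % 3 → n = 1) → ¬ 3 ∣ m →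
      Nat.card M = 24 := fun m h1 h2 h3 => by
    obtain ⟨P, hP⟩ := le_norm_of_card h1 h2 h3 (card_syl3 h)
    obtain ⟨K, h4, h5⟩ := norm3_le h P
    exact h24 K h4 (hP.trans h5)
  have h2 : ∀ k, Nat.card M = 2 ^ k → Nat.card M = 24 := fun k h1 => by
    obtain ⟨T, hT⟩ := (IsPGroup.of_card h1).exists_le_sylow
    obtain ⟨U, hU, h4⟩ := exists_klein_le h T
    exact h24 _ (card_norm_klein h hU) (hT.trans h4)
  have h12 : Nat.card M = 12 → Nat.card M = 24 := fun h1 => by
    obtain ⟨e⟩ := Cfsg.Agent.S0228.result h1 fun z hz hc => by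
      have h4 : M ≤ centralizer {(z : G)} := fun g hg => mem_centralizer_singleton_iff.2
        (congrArg Subtype.val (mem_center_iff.1 hc ⟨g, hg⟩))
      have := card_le_of_le h4
      rw [card_cent2 h (by rw [orderOf_coe, hz])] at this
      omega
    have := alternatingGroup.normal_kleinFour (α := Fin 4) (by simp)
    obtain ⟨U, hU, h4⟩ := exists_klein e _ (alternatingGroup.kleinFour_isKleinFour (by simp))
    exact h24 _ (card_norm_klein h hU) h4
  have h4 := card_le h hM.1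
  have h5 : Nat.card M ∈ Nat.divisors 168 :=
    Nat.mem_divisors.2 ⟨h ▸ card_subgroup_dvd_card _, by norm_num⟩
  have h6 : ∀ n ∈ Nat.divisors 168, n ≤ 24 → n = 2 ^ 0 ∨ n = 2 ^ 1 ∨ n = 2 ^ 2 ∨ n = 2 ^ 3 ∨
      n = 3 * 1 ∨ n = 3 * 2 ∨ n = 12 ∨ n = 24 ∨ n = 7 * 1 ∨ n = 7 * 2 ∨ n = 7 * 3 := by decide
  rcases h6 _ h5 h4 with e | e | e | e | e | e | e | e | e | e | e
  iterate 4 exact Or.inl (h2 _ e)
  iterate 2 exact Or.inl (h3 _ e (by decide) (by decide))
  · exact Or.inl (h12 e)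
  · exact Or.inl e
  all_goals exact Or.inr (h7 _ e (by decide) (by decide))

theorem not_comm21 {M : Subgroup G} (hM : Nat.card M = 21) : ¬ IsMulCommutative M := fun hc => by
  have : Fact (Nat.Prime 7) := ⟨by norm_num⟩
  obtain ⟨x, hx⟩ := exists_prime_orderOf_dvd_card' (G := M) 7 (by rw [hM]; norm_num)
  have h4 : M ≤ centralizer {(x : G)} := fun g hg => mem_centralizer_singleton_iff.2
    (congrArg Subtype.val (hc.is_comm.comm ⟨g, hg⟩ x))
  have := card_le_of_le h4
  rw [card_cent7 h (by rw [orderOf_coe, hx])] at this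
  omega

theorem eq_norm_of_sym4 {M : Subgroup G} (e : M ≃* Equiv.Perm (Fin 4)) :
    ∃ U : Subgroup G, IsKleinFour U ∧ M = normalizer U := by
  have := alternatingGroup.characteristic_kleinFour (α := Fin 4) (by simp)
  obtain ⟨U, hU, h4⟩ := exists_klein e
    ((alternatingGroup.kleinFour (Fin 4)).map (alternatingGroup (Fin 4)).subtype)
    ((klein_map (subtype_injective _)).2 (alternatingGroup.kleinFour_isKleinFour (by simp)))
  refine ⟨U, hU, eq_of_le_of_card_ge h4 ?_⟩
  rw [card_norm_klein h hU, Nat.card_congr e.toEquiv, Nat.card_perm]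
  simp [Nat.factorial]

theorem maximal : (∀ M : Subgroup G, IsCoatom M → Nonempty (↥M ≃* Equiv.Perm (Fin 4)) ∨
    (Nat.card ↥M = 21 ∧ ¬ IsMulCommutative ↥M)) ∧
    (∀ M M' : Subgroup G, IsCoatom M → IsCoatom M' → Nat.card ↥M = 21 → Nat.card ↥M' = 21 →
      ∃ g : G, M' = cj g M) ∧ ∃ M₁ M₂ : Subgroup G, IsCoatom M₁ ∧ IsCoatom M₂ ∧
    Nonempty (↥M₁ ≃* Equiv.Perm (Fin 4)) ∧ Nonempty (↥M₂ ≃* Equiv.Perm (Fin 4)) ∧
    (∀ g : G, M₂ ≠ cj g M₁) ∧ ∀ M : Subgroup G, IsCoatom M →
      Nonempty (↥M ≃* Equiv.Perm (Fin 4)) → ∃ g : G, M = cj g M₁ ∨ M = cj g M₂ := by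
  have : Fact (Nat.Prime 7) := ⟨by norm_num⟩
  refine ⟨fun M hM => (coatom_cases h hM).imp (sym4_of_24 h)
    fun ⟨_, e, _⟩ => ⟨e, not_comm21 h e⟩, fun M M' hM hM' e e' => ?_, ?_⟩
  · obtain ⟨P, -, rfl⟩ := (coatom_cases h hM).resolve_left (by omega)
    obtain ⟨P', -, rfl⟩ := (coatom_cases h hM').resolve_left (by omega)
    obtain ⟨g, rfl⟩ := MulAction.exists_smul_eq G P P'
    exact ⟨g, (cj_normalizer g _).symm⟩
  obtain ⟨T⟩ : Nonempty (Sylow 2 G) := inferInstance
  obtain ⟨U, W, h1, h2, h3⟩ := exists_kleins h T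
  obtain ⟨hU, hU'⟩ := (h3 U).2 (Or.inl rfl)
  obtain ⟨hW, hW'⟩ := (h3 W).2 (Or.inr rfl)
  have hk : ∀ (g : G) (V : Subgroup G), IsKleinFour V → IsKleinFour (cj g V) := fun g V hV =>
    (klein_map (MulAut.conj g).injective).2 hV
  have hp : ∀ V : Subgroup G, IsKleinFour V → IsPGroup 2 V := fun V hV =>
    IsPGroup.of_card (n := 2) hV.card_four
  refine ⟨normalizer U, normalizer W, isCoatom_of_24 h (card_norm_klein h hU'),
    isCoatom_of_24 h (card_norm_klein h hW'), sym4_of_24 h (card_norm_klein h hU'),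
    sym4_of_24 h (card_norm_klein h hW'), fun g e => ?_, fun M _ ⟨e⟩ => ?_⟩
  · rw [cj_normalizer] at e
    have h4 := syl_le_norm h T hW' hW
    rw [e] at h4
    have h5 : cj g U ≤ T := (isSyl_sylow T).le_of_le_normalizer (hp _ (hk g U hU')) le_top h4
    rw [← eq_of_cj h T hU' (hk g U hU') hU h5 rfl] at e
    exact h2 e.symm
  · obtain ⟨V, hV, rfl⟩ := eq_norm_of_sym4 h e
    obtain ⟨g, -, hg⟩ := (isSyl_sylow T).exists_cj_le (hp V hV) le_top
    refine ⟨g⁻¹, ((h3 _).1 ⟨hg, hk g V hV⟩).imp (fun e => ?_) fun e => ?_⟩ <;>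
      rw [← e, cj_normalizer, cj_inv_cj]

end H44.L168
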