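import Cfsg.Agent.H41.LDKit2

/-! LD5-Deg (blueprints/LD5.md): degenerate non-reversible triples are planar. -/

set_option autoImplicit false

open Matrix Cfsg Cfsg.Geo H19 H41.LD

namespace H44.LD

universe u

variable {K : Type u} [Field K]

section two
variable {r s : R 2 K} {a : Fin 2 → K}

theorem ind (hr : r.2 ⬝ᵥ r.1 = 2) (hs : s.2 ⬝ᵥ s.1 = 2) (hc : cc r s ≠ 4) (h1 : r.2 ⬝ᵥ a = 0)
    (h2 : s.2 ⬝ᵥ a = 0) : a = 0 := by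
  simp only [cc, dotProduct, Fin.sum_univ_two] at *
  ext i
  refine mul_left_cancel₀ (sub_ne_zero.2 hc.symm) ?_
  fin_cases i <;> simp only [Fin.zero_eta, Fin.mk_one, Pi.zero_apply]
  · linear_combination (r.1 0 * s.1 1 - r.1 1 * s.1 0) * (s.2 1 * h1 - r.2 1 * h2) -
      a 0 * (s.2 0 * s.1 0 + s.2 1 * s.1 1) * hr - a 0 * 2 * hs
  · linear_combination (r.1 0 * s.1 1 - r.1 1 * s.1 0) * (r.2 0 * h2 - s.2 0 * h1) -
      a 1 * (s.2 0 * s.1 0 + s.2 1 * s.1 1) * hr - a 1 * 2 * hs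

theorem dt_two (hr : r.2 ⬝ᵥ r.1 = 2) (hs : s.2 ⬝ᵥ s.1 = 2) (t : R 2 K) :
    dt r s t = (4 - cc r s) * (2 - t.2 ⬝ᵥ t.1) := by
  simp only [dt, cc, tau, dotProduct, Fin.sum_univ_two] at *
  linear_combination ((s.2 0 * t.1 0 + s.2 1 * t.1 1) * (t.2 0 * s.1 0 + t.2 1 * s.1 1) -
    (s.2 0 * s.1 0 + s.2 1 * s.1 1) * (t.2 0 * t.1 0 + t.2 1 * t.1 1)) * hr +
    ((r.2 0 * t.1 0 + r.2 1 * t.1 1) * (t.2 0 * r.1 0 + t.2 1 * r.1 1) -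
    2 * (t.2 0 * t.1 0 + t.2 1 * t.1 1)) * hs

end two

variable {n m : ℕ} {G : Subgroup (GL (Fin n) K)}
  {U : Matrix (Fin n) (Fin m) K} {Φ : Matrix (Fin m) (Fin n) K} {f χ : Fin n → K}
  {a b a' b' : Fin m → K} {k k' : K} {r s t x y : R m K}

/-- The data of a degenerate triple. -/
structure Hy (U : Matrix (Fin n) (Fin m) K) (Φ : Matrix (Fin m) (Fin n) K) (f χ : Fin n → K) :
    Prop where
  h0 : Φ * U = 1
  h1 : Φ *ᵥ f = 0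
  h2 : χ ᵥ* U = 0
  h3 : χ ⬝ᵥ f = 0

/-- The model matrices. -/
def M (U : Matrix (Fin n) (Fin m) K) (Φ : Matrix (Fin m) (Fin n) K) (f χ : Fin n → K)
    (Y : Matrix (Fin m) (Fin m) K) (a b : Fin m → K) (k : K) : Matrix (Fin n) (Fin n) K :=
  th U Φ Y + N (U *ᵥ a, χ) + N (f, b ᵥ* Φ) + k • N (f, χ)

theorem M_one : M U Φ f χ 1 0 0 0 = 1 := by simp [M, th_one]

namespace Hy
variable (h : Hy U Φ f χ)
include h

theorem d1 (a : Fin m → K) : χ ⬝ᵥ U *ᵥ a = 0 := by rw [dotProduct_mulVec, h.h2, zero_dotProduct]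

theorem d2 (b : Fin m → K) : b ᵥ* Φ ⬝ᵥ f = 0 := by rw [← dotProduct_mulVec, h.h1, dotProduct_zero]

theorem d3 (a b : Fin m → K) : b ᵥ* Φ ⬝ᵥ U *ᵥ a = b ⬝ᵥ a := up_dot h.h0 (0, b) (a, 0)

theorem mul (Y Y' : Matrix (Fin m) (Fin m) K) (a b a' b' : Fin m → K) (k k' : K) :
    M U Φ f χ Y a b k * M U Φ f χ Y' a' b' k' =
      M U Φ f χ (Y * Y') (Y *ᵥ a' + a) (b ᵥ* Y' + b') (k + k' + b ⬝ᵥ a') := by
  have e1 : th U Φ Y *ᵥ f = f := by simp [th, add_mulVec, ← mulVec_mulVec, h.h1]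
  have e2 : χ ᵥ* th U Φ Y' = χ := by simp [th, vecMul_add, ← vecMul_vecMul, h.h2]
  have e3 : ∀ x : R n K, th U Φ Y * N x = N (th U Φ Y *ᵥ x.1, x.2) := mul_N _
  have e4 : ∀ x : R n K, N x * th U Φ Y' = N (x.1, x.2 ᵥ* th U Φ Y') := fun x => N_mul x _
  simp only [M, mul_add, add_mul, smul_mul_assoc, mul_smul_comm, N_mk_mul, e3, e4, e1, e2, h.d1, h.d2,
    h.d3, h.h3, th_mul h.h0, mulVec_mulVec, vecMul_vecMul, th_mul_U h.h0, mul_th h.h0, mulVec_add,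
    add_vecMul, N_add_left, N_add_right]
  module

theorem back (Y : Matrix (Fin m) (Fin m) K) (a b : Fin m → K) (k : K) :
    Φ * M U Φ f χ Y a b k * U = Y := by
  simp [M, Matrix.mul_add, Matrix.add_mul, th_back h.h0, N, mul_vecMulVec, vecMulVec_mul, h.h1, h.h2]

/-- The image in dimension two. -/
def G2 (G : Subgroup (GL (Fin n) K)) : Subgroup (GL (Fin m) K) where
  carrier := {g | ∃ a b k, In G (M U Φ f χ g.val a b k)}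
  one_mem' := ⟨0, 0, 0, by rw [Units.val_one, M_one]; exact In.one G⟩
  mul_mem' := fun ⟨_, _, _, p⟩ ⟨_, _, _, q⟩ => ⟨_, _, _, h.mul .. ▸ p.mul q⟩
  inv_mem' := fun {g} ⟨a, b, k, p⟩ => ⟨-((g⁻¹).val *ᵥ a), -(b ᵥ* (g⁻¹).val), b ⬝ᵥ (g⁻¹).val *ᵥ a - k,
    p.inv (by rw [h.mul]; simp [mulVec_neg, M_one])⟩

theorem fin [Finite G] : Finite (h.G2 G) := by
  choose a b k g hg e using fun g : h.G2 G => g.2
  exact Finite.of_injective (fun x => (⟨g x, hg x⟩ : G)) fun x y e' => Subtype.ext (Units.ext (by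
    rw [← h.back x.1.val (a x) (b x) (k x), ← e, show g x = g y from congrArg Subtype.val e', e, h.back]))

end Hy

/-- Data of the kernel. -/
def Kd (G : Subgroup (GL (Fin n) K)) (U : Matrix (Fin n) (Fin m) K) (Φ : Matrix (Fin m) (Fin n) K)
    (f χ : Fin n → K) (a b : Fin m → K) : Prop := ∃ k, In G (M U Φ f χ 1 a b k)

/-- A generator. -/
def Gn (G : Subgroup (GL (Fin n) K)) (U : Matrix (Fin n) (Fin m) K) (Φ : Matrix (Fin m) (Fin n) K)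
    (f χ : Fin n → K) (x : R m K) (c : K) : Prop :=
  x.2 ⬝ᵥ x.1 = 2 ∧ In G (M U Φ f χ (1 - N x) (c • x.1) (c • x.2) c)

namespace Hy
variable (h : Hy U Φ f χ) {c : K}
include h

theorem comm (hz : In G (M U Φ f χ (-1) a b k)) (hx : Gn G U Φ f χ x c) :
    Kd G U Φ f χ ((x.2 ⬝ᵥ a - 2 * c) • x.1) ((2 * c - b ⬝ᵥ x.1) • x.2) :=
  ⟨b ⬝ᵥ c • x.1 - c • x.2 ⬝ᵥ a - ((2 * c - b ⬝ᵥ x.1) • x.2) ⬝ᵥ ((1 - N x) *ᵥ a + c • x.1),
    (hz.mul hx.2).of_mul (hx.2.mul hz) (by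
      rw [h.mul, h.mul, h.mul]
      congr 1
      · simp
      · simp only [neg_mulVec, one_mulVec, rf_mulVec]; module
      · simp only [mul_neg, mul_one, vecMul_neg, vecMul_one, vecMul_rf, smul_dotProduct,
          hx.1, smul_eq_mul]
        module
      · ring)⟩

theorem cnj (hn : Kd G U Φ f χ a b) (hx : Gn G U Φ f χ x c) :
    Kd G U Φ f χ (-(x.2 ⬝ᵥ a) • x.1) (-(b ⬝ᵥ x.1) • x.2) := by
  obtain ⟨k, hn⟩ := hn
  obtain ⟨k', e⟩ : ∃ k', M U Φ f χ (1 - N x) (c • x.1) (c • x.2) c * M U Φ f χ 1 a b k *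
      M U Φ f χ (1 - N x) (c • x.1) (c • x.2) c =
      M U Φ f χ 1 (-(x.2 ⬝ᵥ a) • x.1) (-(b ⬝ᵥ x.1) • x.2) k' * M U Φ f χ 1 a b k := ⟨c + c • x.2 ⬝ᵥ a +
      c + ((c • x.2) ᵥ* 1 + b) ⬝ᵥ c • x.1 - -(b ⬝ᵥ x.1) • x.2 ⬝ᵥ a, by
    rw [h.mul, h.mul, h.mul]
    congr 1
    · simp [rf_mul_self hx.1]
    · simp only [mul_one, one_mulVec, rf_mulVec, dotProduct_smul, hx.1, smul_eq_mul]; module
    · simp only [vecMul_one, vecMul_rf, add_dotProduct, smul_dotProduct, hx.1, smul_eq_mul]; module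
    · ring⟩
  exact ⟨k', ((hx.2.mul hn).mul hx.2).of_mul hn e⟩

variable (hT : NoTv G)
include hT

theorem left (hχ : χ ≠ 0) (hn : Kd G U Φ f χ a b) (h0 : f = 0 ∨ b = 0) : a = 0 := by
  obtain ⟨k, hn⟩ := hn
  have e : M U Φ f χ 1 a b k = 1 + N (U *ᵥ a + k • f, χ) := by
    rcases h0 with rfl | rfl <;> simp [M, th_one, N_add_left, N_smul_left, add_assoc]
  have := (hT (U *ᵥ a + k • f, χ) ⟨by simp [h.d1, h.h3], e ▸ hn⟩).resolve_right hχ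
  simpa [mulVec_add, mulVec_smul, h.h0, h.h1] using congrArg (Φ *ᵥ ·) this

theorem right (hf : f ≠ 0) (hn : Kd G U Φ f χ a b) (h0 : χ = 0 ∨ a = 0) : b = 0 := by
  obtain ⟨k, hn⟩ := hn
  have e : M U Φ f χ 1 a b k = 1 + N (f, b ᵥ* Φ + k • χ) := by
    rcases h0 with rfl | rfl <;> simp [M, th_one, N_add_right, N_smul_right, add_assoc]
  have := (hT (f, b ᵥ* Φ + k • χ) ⟨by simp [h.d2, h.h3], e ▸ hn⟩).resolve_left hf
  simpa [add_vecMul, smul_vecMul, h.h0, h.h2] using congrArg (· ᵥ* U) this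

theorem heis (hf : f ≠ 0) (hχ : χ ≠ 0) (hn : Kd G U Φ f χ a b) (hn' : Kd G U Φ f χ a' b') :
    b ⬝ᵥ a' = b' ⬝ᵥ a := by
  obtain ⟨k, hn⟩ := hn
  obtain ⟨k', hn'⟩ := hn'
  rw [M, th_one] at hn hn'
  have := (hT _ (hc hn hn' (h.d1 _) (h.d1 _) h.h3 (h.d2 _) (h.d2 _))).resolve_left hf
  simpa [hχ, h.d3, sub_eq_zero] using this

theorem core (h2 : (2 : K) ≠ 0) (hz : In G (M U Φ f χ (-1) a b k)) (hr : Gn G U Φ f χ r 0)
    (hs : Gn G U Φ f χ s 0) (ht : Gn G U Φ f χ t (-1)) 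
    (i1 : ∀ a, r.2 ⬝ᵥ a = 0 → s.2 ⬝ᵥ a = 0 → a = 0) (i2 : ∀ a, r.1 ⬝ᵥ a = 0 → s.1 ⬝ᵥ a = 0 → a = 0)
    (c1 : cc r s ≠ 0)
    (c3 : cc r t ≠ 0) (ne : tau r s t ≠ tau r t s) : f = 0 ∧ χ = 0 := by
  have n1 : ∀ {x : R m K}, x.2 ⬝ᵥ x.1 = 2 → x.1 ≠ 0 ∧ x.2 ≠ 0 := fun e =>
    ⟨fun e' => h2 (by simpa [e'] using e.symm), fun e' => h2 (by simpa [e'] using e.symm)⟩
  have k1 := h.comm hz hr
  have k2 := h.comm hz hs
  have k3 := h.comm hz ht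
  have nl : ¬ ((r.2 ⬝ᵥ a - 2 * 0) • r.1 = 0 ∧ (s.2 ⬝ᵥ a - 2 * 0) • s.1 = 0 ∧
      (t.2 ⬝ᵥ a - 2 * -1) • t.1 = 0) := fun ⟨e1, e2, e3⟩ => by
    obtain rfl := i1 a (by simpa [(n1 hr.1).1] using e1) (by simpa [(n1 hs.1).1] using e2)
    simp [(n1 ht.1).1, h2] at e3
  have nr : ¬ ((2 * 0 - b ⬝ᵥ r.1) • r.2 = 0 ∧ (2 * 0 - b ⬝ᵥ s.1) • s.2 = 0 ∧
      (2 * -1 - b ⬝ᵥ t.1) • t.2 = 0) := fun ⟨e1, e2, e3⟩ => by
    obtain rfl := i2 b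
      (by simpa [(n1 hr.1).2, dotProduct_comm] using e1) (by simpa [(n1 hs.1).2, dotProduct_comm] using e2)
    simp [(n1 ht.1).2, h2] at e3
  by_cases hf : f = 0
  · exact ⟨hf, by_contra fun hχ => nl ⟨h.left hT hχ k1 (.inl hf), h.left hT hχ k2 (.inl hf),
      h.left hT hχ k3 (.inl hf)⟩⟩
  by_cases hχ : χ = 0
  · exact (nr ⟨h.right hT hf k1 (.inl hχ), h.right hT hf k2 (.inl hχ), h.right hT hf k3 (.inl hχ)⟩).elim
  let D : R m K → Prop := fun x => ∃ α β : K, α ≠ 0 ∧ β ≠ 0 ∧ Kd G U Φ f χ (α • x.1) (β • x.2)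
  have mk : ∀ {x : R m K} {α β : K}, Kd G U Φ f χ (α • x.1) (β • x.2) → α • x.1 ≠ 0 → D x :=
    fun k e => ⟨_, _, left_ne_zero_of_smul e,
      fun e' => e (h.left hT hχ k (.inr (by rw [e', zero_smul]))), k⟩
  have mv : ∀ {x y : R m K} {c}, D x → Gn G U Φ f χ y c → cc x y ≠ 0 → D y :=
    fun ⟨α, β, p, q, k⟩ hy e => ⟨_, _, by simp [p, right_ne_zero_of_mul e],
      by simp [q, left_ne_zero_of_mul e], h.cnj k hy⟩
  have d1 : D r := by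
    by_contra nd
    exact nl ⟨by_contra fun e => nd (mk k1 e), by_contra fun e => nd (mv (mk k2 e) hr (cc_comm r s ▸ c1)),
      by_contra fun e => nd (mv (mk k3 e) hr (cc_comm r t ▸ c3))⟩
  obtain ⟨α₂, β₂, p2, q2, m2⟩ := mv d1 hs c1
  obtain ⟨α₃, β₃, p3, q3, m3⟩ := mv d1 ht c3
  obtain ⟨α₁, β₁, p1, q1, m1⟩ := d1
  have e1 := h.heis hT hf hχ m1 m2
  have e2 := h.heis hT hf hχ m2 m3
  have e3 := h.heis hT hf hχ m3 m1
  refine (ne (mul_left_cancel₀ (a := α₁ * α₂ * α₃ * β₁ * β₂ * β₃) (by simp [*]) ?_)).elim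
  have := congrArg₂ (· * ·) (congrArg₂ (· * ·) e1 e2) e3
  simp only [smul_dotProduct, dotProduct_smul, smul_eq_mul, tau] at this ⊢
  linear_combination this

end Hy

theorem plane (hS : JobS2.{u}) [IsAlgClosed K] {G : Subgroup (GL (Fin 5) K)} (hG : RS G)
    (h2 : (2 : K) ≠ 0) {r s t : R 5 K} (h : NR G r s t) (hd : dt r s t = 0) (h4 : cc r s ≠ 4) :
    Pl r s t := by
  have := hG.fin
  let U : Matrix (Fin 5) (Fin 2) K := (of ![r.1, s.1])ᵀ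
  let Ψ : Matrix (Fin 2) (Fin 5) K := of ![r.2, s.2]
  have hC : Ψ * U = !![2, r.2 ⬝ᵥ s.1; s.2 ⬝ᵥ r.1, 2] := by
    ext i j
    fin_cases i <;> fin_cases j
    exacts [h.r1.1, rfl, rfl, h.r2.1]
  have hu : IsUnit (Ψ * U).det := by
    rw [hC, det_fin_two_of]
    exact (sub_ne_zero.2 fun e => h4 (by rw [cc, ← e]; norm_num)).isUnit
  have m1 : ∀ v, U *ᵥ v ∈ Submodule.span K {r.1, s.1} := fun v =>
    Submodule.mem_span_pair.2 ⟨v 0, v 1, by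
      ext i; simp [U, mulVec, dotProduct, Fin.sum_univ_two, mul_comm]⟩
  have m2 : ∀ v, v ᵥ* Ψ ∈ Submodule.span K {r.2, s.2} := fun v =>
    Submodule.mem_span_pair.2 ⟨v 0, v 1, by ext i; simp [Ψ, vecMul, dotProduct, Fin.sum_univ_two]⟩
  have u0 : U *ᵥ Pi.single 0 1 = r.1 := by ext i; simp [U]
  have u1 : U *ᵥ Pi.single 1 1 = s.1 := by ext i; simp [U]
  have p0 : Pi.single 0 1 ᵥ* Ψ = r.2 := by ext i; simp [Ψ]
  have p1 : Pi.single 1 1 ᵥ* Ψ = s.2 := by ext i; simp [Ψ]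
  clear_value U Ψ
  obtain ⟨Φ, hΦ⟩ : ∃ Φ, Φ = (Ψ * U)⁻¹ * Ψ := ⟨_, rfl⟩
  have h0 : Φ * U = 1 := by rw [hΦ, Matrix.mul_assoc, nonsing_inv_mul _ hu]
  have h1 : Ψ * U * Φ = Ψ := by rw [hΦ, ← Matrix.mul_assoc, mul_nonsing_inv _ hu, Matrix.one_mul]
  obtain ⟨r', rfl⟩ : ∃ r', r = up U Φ r' := ⟨(Pi.single 0 1, Pi.single 0 1 ᵥ* (Ψ * U)),
    Prod.ext u0.symm (by rw [up, vecMul_vecMul, h1, p0])⟩
  obtain ⟨s', rfl⟩ : ∃ s', s = up U Φ s' := ⟨(Pi.single 1 1, Pi.single 1 1 ᵥ* (Ψ * U)),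
    Prod.ext u1.symm (by rw [up, vecMul_vecMul, h1, p1])⟩
  obtain ⟨t', f, χ, rfl, f0, x0⟩ : ∃ (t' : R 2 K) (f χ : Fin 5 → K),
      t = (U *ᵥ t'.1 + f, t'.2 ᵥ* Φ + χ) ∧ Φ *ᵥ f = 0 ∧ χ ᵥ* U = 0 :=
    ⟨(Φ *ᵥ t.1, t.2 ᵥ* U), t.1 - U *ᵥ Φ *ᵥ t.1, t.2 - t.2 ᵥ* U ᵥ* Φ, by simp,
      by rw [mulVec_sub, mulVec_mulVec, h0, one_mulVec, sub_self],
      by rw [sub_vecMul, vecMul_vecMul _ Φ, h0, vecMul_one, sub_self]⟩
  have d1 : ∀ a, χ ⬝ᵥ U *ᵥ a = 0 := fun a => by rw [dotProduct_mulVec, x0, zero_dotProduct]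
  have d2 : ∀ b, b ᵥ* Φ ⬝ᵥ f = 0 := fun b => by rw [← dotProduct_mulVec, f0, dotProduct_zero]
  have d3 : ∀ a b, b ᵥ* Φ ⬝ᵥ U *ᵥ a = b ⬝ᵥ a := fun a b => up_dot h0 (0, b) (a, 0)
  have e1 := h.r1.1
  have e2 := h.r2.1
  have e3 := h.r3.1
  have ne := h.ne
  have c1 := h.cc_ne hG.thin
  have c3 := h.swap.cc_ne hG.thin
  simp only [dt, cc, tau, up, add_dotProduct, dotProduct_add, d1, d2, d3, add_zero]
    at e1 e2 e3 ne c1 c3 hd h4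
  have e4 : t'.2 ⬝ᵥ t'.1 = 2 := (sub_eq_zero.1 ((mul_eq_zero.1 ((dt_two e1 e2 t').symm.trans hd)).resolve_left
    (sub_ne_zero.2 (Ne.symm h4)))).symm
  have H : Hy U Φ f χ := ⟨h0, f0, x0, by linear_combination e3 - e4⟩
  have g1 : Gn G U Φ f χ r' 0 := ⟨e1, by simpa [M, th_rf] using h.r1.isIn⟩
  have g2 : Gn G U Φ f χ s' 0 := ⟨e2, by simpa [M, th_rf] using h.r2.isIn⟩
  have g3 : Gn G U Φ f χ t' (-1) := ⟨e4, by
    convert h.r3.isIn using 1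
    simp only [M, th_rf, N_add_left, N_add_right, up, mulVec_smul, smul_vecMul, N_smul_left,
      N_smul_right]
    module⟩
  have rf2 : ∀ {x c}, Gn G U Φ f χ x c → Rf (H.G2 G) x := fun {x c} g =>
    ⟨g.1, fun e => h2 (by simpa [e] using g.1.symm), fun e => h2 (by simpa [e] using g.1.symm),
      rf x g.1, ⟨_, _, _, g.2⟩, rfl⟩
  obtain ⟨a, b, k, hz⟩ := (hS K h2).1 (H.G2 G) r' s' t' H.fin ⟨rf2 g1, rf2 g2, rf2 g3, ne⟩ (H.G2 G)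
    fun _ _ _ hg _ => hg
  obtain ⟨rfl, rfl⟩ := H.core (hG.tv h2) h2 hz g1 g2 g3 (fun _ => ind e1 e2 h4)
    (fun _ => ind (r := (r'.2, r'.1)) (s := (s'.2, s'.1)) ((dotProduct_comm ..).trans e1)
      ((dotProduct_comm ..).trans e2) (by rwa [cc, dotProduct_comm, mul_comm, dotProduct_comm]))
    c1 c3 ne
  exact ⟨by simpa using m1 _, by simpa [vecMul_vecMul, ← hΦ] using m2 (t'.2 ᵥ* (Ψ * U)⁻¹)⟩

theorem pl_rot {r s t : R n K} (hT : Thin G) (h : NR G r s t) (p : Pl s t r) : Pl r s t := by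
  have key : ∀ {x y z : Fin n → K}, (∀ c : K, x ≠ c • y) → x ∈ Submodule.span K {y, z} →
      z ∈ Submodule.span K {x, y} := fun {x y z} n p => by
    obtain ⟨a, b, rfl⟩ := Submodule.mem_span_pair.1 p
    have hb : b ≠ 0 := fun e => n a (by simp [e])
    exact Submodule.mem_span_pair.2 ⟨b⁻¹, -(b⁻¹ * a), by
      rw [smul_add, smul_smul, smul_smul, inv_mul_cancel₀ hb]; module⟩
  exact ⟨key (fun c e => h.N_ne (hT.N_eq_of_left h.r2 h.r1 e)) p.1,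
    key (fun c e => h.N_ne (hT.N_eq_of_right h.r2 h.r1 e)) p.2⟩

theorem jobDeg : JobDeg.{u} := fun hS K _ _ G hG h2 r s t h hd => by
  by_cases c1 : cc r s = 4
  · by_cases c2 : cc s t = 4
    · by_cases c3 : cc t r = 4
      · have e := tau_mul r s t
        rw [dt, cc_comm r t, c1, c2, c3] at hd
        rw [cc_comm r t, c1, c2, c3] at e
        exact (h.ne (sub_eq_zero.1 (pow_eq_zero_iff two_ne_zero |>.1
          (show (tau r s t - tau r t s) ^ 2 = 0 by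
            linear_combination (tau r s t + tau r t s + 16) * hd - 4 * e)))).elim
      · exact pl_rot hG.thin h (pl_rot hG.thin h.rot
          (plane hS hG h2 h.rot.rot (by rwa [dt_rot, dt_rot]) c3))
    · exact pl_rot hG.thin h (plane hS hG h2 h.rot (by rwa [dt_rot]) c2)
  · exact plane hS hG h2 h hd c1

end H44.LD
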