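/- C7-O3 tower, job ISO: the isolation property of `Ω₃(q)`. -/
import Cfsg.Agent.H60.WrO3Spec
import Cfsg.Agent.H3.C7BQ

set_option autoImplicit false

namespace H44.O3
open Module Matrix H60.Wr H19 Function H3.C7

universe u

section alg
variable {F : Type u} [Field F] {A : Type*} [Ring A] [Algebra F A]

/-- The truncated exponential. -/
def ex (R : A) (s : F) : A := 1 + s • R + (s ^ 2 / 2) • (R * R)

/-- The map `T_s`. -/
def TT (R : A) (s : F) (X : A) : A := ex R s * X * ex R (-s) - X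

variable {R : A}

theorem ex_mul (h2 : (2 : F) ≠ 0) (h : R * (R * R) = 0) (s : F) : ex R s * ex R (-s) = 1 := by
  simp only [ex, mul_add, add_mul, smul_mul_assoc, mul_smul_comm, mul_assoc, one_mul, mul_one, h,
    mul_zero, smul_zero, add_zero]
  match_scalars <;> field_simp <;> ring

theorem tt_four (h2 : (2 : F) ≠ 0) (h : R * (R * R) = 0) {a : F} (a0 : a ≠ 0) (X : A) :
    TT R a (TT R a⁻¹ X) + TT R (-a) (TT R (-a⁻¹) X) -
      (TT R (1 : F) (TT R (1 : F) X) + TT R (-1 : F) (TT R (-1 : F) X)) =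
      (2 * (a - a⁻¹) ^ 2) • (R * R * X * (R * R)) := by
  have h' : ∀ Y, R * (R * (R * Y)) = 0 := fun Y => by
    rw [← mul_assoc R R (R * Y), ← mul_assoc (R * R) R Y, mul_assoc R R R, h, zero_mul]
  simp only [TT, ex, mul_add, add_mul, mul_sub, sub_mul, smul_mul_assoc, mul_smul_comm, mul_assoc,
    one_mul, mul_one, h, h', smul_zero, add_zero, mul_zero]
  match_scalars <;> field_simp <;> ring

theorem tt_two (h2 : (2 : F) ≠ 0) (X : A) :
    TT R (1 : F) X + TT R (-1 : F) X =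
      R * R * X - (2 : F) • (R * X * R) + X * (R * R) + (1 / 2 : F) • (R * R * X * (R * R)) := by
  simp only [TT, ex, mul_add, add_mul, smul_mul_assoc, mul_smul_comm, mul_assoc, one_mul, mul_one]
  match_scalars <;> field_simp <;> ring

end alg

variable {F : Type u} [Field F] {t : ℕ} {B : Frm (Fin 3) F} {w w' v x y : Fin 3 → F}

/-- The skew map `x φ_y - y φ_x`. -/
abbrev sk (B : Frm (Fin 3) F) (x y : Fin 3 → F) : Mk 3 F := rf B x y - rf B y x

theorem sym (H : O3 B) (x y : Fin 3 → F) : B.f y x = B.f x y := by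
  rw [B.symm, H.sig, H.eps, one_mul]

theorem sk_sq (H : O3 B) (hw : B.f w w = 0) (hv : B.f v w = 0) :
    sk B w v * sk B w v = -(B.f v v • rf B w w) := by
  simp only [mul_sub, sub_mul, rf_mul_rf, hw, hv, sym H v w, zero_smul]
  abel

theorem sk_cube (H : O3 B) (hw : B.f w w = 0) (hv : B.f v w = 0) :
    sk B w v * (sk B w v * sk B w v) = 0 := by
  rw [sk_sq H hw hv]
  simp [sub_mul, rf_mul_rf, hw, hv, sym H v w]

theorem eu_eq (H : O3 B) (hw : B.f w w = 0) (hv : B.f v w = 0) (s : F) :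
    eu B w (s • v) = ex (sk B w v) s := by
  have := H.two
  simp only [eu, ex, sk_sq H hw hv, rf_smul_left, rf_smul_right, B.smul_left, B.smul_right, H.sig]
  match_scalars <;> field_simp

theorem em_ex (j : Fin t) (a : Mk 3 F) (s : F) : (em j (ex a s) : EE 3 t F) = ex (em j a) s := by
  simp only [ex, map_add, map_one, map_smul, map_mul]

/-- The additive group is stable under the maps `T_s`. -/
theorem tt_mem (H : O3F B) (hw : w ∈ IsoV B) (hv : B.f v w = 0) {j : Fin t}
    {ℬ : AddSubgroup (EE 3 t F)} (hB : ∀ s ∈ G0 B, ∀ X ∈ ℬ, cj (emG j s) X ∈ ℬ) (s : F)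
    {X : EE 3 t F} (hX : X ∈ ℬ) : TT (em j (sk B w v)) s X ∈ ℬ := by
  obtain ⟨g, hg, e⟩ := H.eich w hw (s • v) (by rw [B.smul_left, hv, mul_zero])
  rw [eu_eq H.toO3 hw.2 hv] at e
  have e' : ((g⁻¹ : GL (Fin 3) F) : Mk 3 F) = ex (sk B w v) (-s) :=
    Units.inv_eq_of_mul_eq_one_right (by rw [e]; exact ex_mul H.two (sk_cube H.toO3 hw.2 hv) s)
  have := sub_mem (hB g hg X hX) hX
  rwa [cj_apply, ← map_inv, coe_emG, coe_emG, e, e', em_ex, em_ex] at this

/-- Expansion in a frame. -/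
theorem frame_exp {n : F} (h : rf B w w' + rf B w' w + n⁻¹ • rf B v v = 1) (x : Fin 3 → F) :
    x = B.f x w' • w + B.f x w • w' + (n⁻¹ * B.f x v) • v := by
  have := congrArg (· *ᵥ x) h
  simpa only [add_mulVec, smul_mulVec, rf_mulVec, one_mulVec, smul_smul, eq_comm] using this

/-- A matrix fixing all singular points is a scalar. -/
theorem sc_of_sing (H : O3L B) {X : Mk 3 F} (h : ∀ w ∈ IsoV B, ∃ c : F, X *ᵥ w = c • w) : Sc X := by
  obtain ⟨c, hc⟩ := H.quad X fun w hw => by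
    obtain ⟨c, e⟩ := h w hw
    rw [e, B.smul_left, hw.2, mul_zero]
  have key : ∀ x y a b, X *ᵥ x = (a : F) • x → X *ᵥ y = (b : F) • y → B.f x y ≠ 0 → a + b = c :=
    fun x y a b e1 e2 n => mul_right_cancel₀ n (by
      have := congrArg (fun Y => B.f (Y *ᵥ x) y) hc
      simp only [add_mulVec, B.add_left, smul_mulVec, one_mulVec, B.smul_left, ← B.adj_right, e1, e2,
        B.smul_right, H.sig] at this
      rw [add_mul, this])
  have all : ∀ w ∈ IsoV B, X *ᵥ w = (c / 2) • w := fun w hw => by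
    obtain ⟨w', hw', e⟩ := H.hyp w hw
    obtain ⟨v, v1, v2, v3, -⟩ := H.frame w hw w' hw' e
    have h2 := H.two
    have e' : B.f w' w = 1 := (sym H.toO3 _ _).trans e
    have e1 : B.f (w' + v - (B.f v v / 2) • w) w = 1 := by
      simp [B.sub_left, B.add_left, B.smul_left, e', v1, hw.2]
    have e2 : B.f (w' + v - (B.f v v / 2) • w) w' = -(B.f v v / 2) := by
      simp [B.sub_left, B.add_left, B.smul_left, e, v2, hw'.2]
    have e3 : B.f (w' + v - (B.f v v / 2) • w) v = B.f v v := by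
      simp [B.sub_left, B.add_left, B.smul_left, sym H.toO3 v, v1, v2]
    obtain ⟨a, ha⟩ := h w hw
    obtain ⟨b, hb⟩ := h w' hw'
    obtain ⟨d, hd⟩ := h (w' + v - (B.f v v / 2) • w) ⟨fun n => by simp [n] at e1, by
      rw [B.sub_right, B.add_right, B.smul_right, e1, e2, e3, H.sig]; field_simp; ring⟩
    have k1 := key _ _ _ _ ha hb (e ▸ one_ne_zero)
    have k2 := key _ _ _ _ hd ha (e1 ▸ one_ne_zero)
    have k3 := key _ _ _ _ hd hb (e2 ▸ neg_ne_zero.2 (div_ne_zero v3 h2))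
    rw [ha, show a = c / 2 by field_simp; linear_combination k1 + k2 - k3]
  obtain ⟨w, hw⟩ := H.ex
  refine ⟨c / 2, ext_mulVec fun y => ?_⟩
  have hy : y ∈ Submodule.span F {y | y ∈ IsoV B ∧ B.f w y ≠ 0} := by rw [H.sp w hw.1]; trivial
  rw [smul_mulVec, one_mulVec]
  induction hy using Submodule.span_induction with
  | mem y hy => exact all y hy.1
  | zero => simp
  | add x y _ _ p q => rw [mulVec_add, p, q, smul_add]
  | smul a x _ p => rw [mulVec_smul, p, smul_comm]

theorem jobO3Iso : JobO3Iso.{u} := by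
  intro F _ _ t B H j ℬ hB _ γ hγ hn
  have h2 := H.two
  have S := sym H.toO3
  let g : (Fin 3 → F) → (Fin 3 → F) → EE 3 t F := fun x y => ct j (ph B x) y γ
  have hg : ∀ x y z v, em j (rf B x y) * γ * em j (rf B z v) = em j (rf B x v) * g y z :=
    fun x y z v => ct_spec ..
  have gc : ∀ x y, InC j (g x y) := fun x y => ct_inC _ _ _ _
  have hc : ∀ (l : EE 3 t F →ₗ[F] F) x y, B.f (cpt j l γ *ᵥ y) x = l (g x y) := fun l x y => by
    rw [← ph_dot, cpt_spec]
  have sq : ∀ {w v}, w ∈ IsoV B → B.f v w = 0 → (em j (sk B w v) : EE 3 t F) * em j (sk B w v) =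
      -(B.f v v • em j (rf B w w)) := fun hw hv => by
    rw [← map_mul, sk_sq H.toO3 hw.2 hv, map_neg, map_smul]
  have four : ∀ {w v}, w ∈ IsoV B → B.f v w = 0 →
      em j (sk B w v) * em j (sk B w v) * γ * (em j (sk B w v) * em j (sk B w v)) =
        em j (rf B w w) * (B.f v v ^ 2 • g w w) := fun hw hv => by
    simp only [sq hw hv, neg_mul, mul_neg, neg_neg, smul_mul_assoc, mul_smul_comm, hg, smul_smul,
      pow_two, smul_neg]
  by_cases c1 : ∃ w ∈ IsoV B, g w w ≠ 0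
  · obtain ⟨w, hw, n⟩ := c1
    obtain ⟨w', hw', e⟩ := H.hyp w hw
    obtain ⟨v, v1, -, v3, -⟩ := H.frame w hw w' hw' e
    obtain ⟨a, a0, a1⟩ := H.big
    have T := fun s X => tt_mem H hw v1 hB s (X := X)
    have m := sub_mem (add_mem (T a _ (T a⁻¹ _ hγ)) (T (-a) _ (T (-a⁻¹) _ hγ)))
      (add_mem (T 1 _ (T 1 _ hγ)) (T (-1) _ (T (-1) _ hγ)))
    rw [tt_four h2 (by rw [← map_mul, ← map_mul, sk_cube H.toO3 hw.2 v1, map_zero]) a0, four hw v1,
      ← mul_smul_comm] at m
    refine ⟨_, .inl ⟨w, hw, rfl⟩, _, ((gc _ _).smul _).smul _, smul_ne_zero (mul_ne_zero h2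
      (pow_ne_zero _ fun l => a1 ?_)) (smul_ne_zero (pow_ne_zero _ v3) n), m⟩
    rw [pow_two]
    nth_rw 2 [sub_eq_zero.1 l]
    exact mul_inv_cancel₀ a0
  push Not at c1
  have q : ∀ l : EE 3 t F →ₗ[F] F, ∃ c : F, ∀ x y, l (g x y) + l (g y x) = c * B.f x y := fun l => by
    obtain ⟨c, e⟩ := H.quad (cpt j l γ) fun w hw => by rw [hc, c1 w hw, map_zero]
    refine ⟨c, fun x y => ?_⟩
    have := congrArg (fun Y => B.f (Y *ᵥ y) x) e
    simp only [add_mulVec, B.add_left, smul_mulVec, one_mulVec, B.smul_left, ← B.adj_right] at this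
    rwa [S (cpt j l γ *ᵥ x), hc, hc, S x] at this
  by_cases c2 : ∃ w ∈ IsoV B, ∃ w' ∈ IsoV B, ∃ v, B.f w w' = 1 ∧ B.f v w = 0 ∧ B.f v v ≠ 0 ∧
      rf B w w' + rf B w' w + (B.f v v)⁻¹ • rf B v v = 1 ∧ g v w ≠ 0
  · obtain ⟨w, hw, w', hw', v, e, v1, v3, fr, n⟩ := c2
    have k1 : g w v = -g v w := by
      rw [eq_neg_iff_add_eq_zero, ← Module.forall_dual_apply_eq_zero_iff F]
      intro l
      obtain ⟨c, hc⟩ := q l
      rw [map_add, hc, S v, v1, mul_zero]
    have k2 : (2 : F) • g v v = B.f v v • (g w w' + g w' w) := by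
      rw [← sub_eq_zero, ← Module.forall_dual_apply_eq_zero_iff F]
      intro l
      obtain ⟨c, hc⟩ := q l
      rw [map_sub, map_smul, map_smul, map_add, hc, e, smul_eq_mul, smul_eq_mul, two_mul, hc]
      ring
    have T := fun s X => tt_mem H hw v1 hB s (X := X)
    have m := add_mem (T 1 _ hγ) (T (-1) _ hγ)
    have one : (1 : EE 3 t F) =
        em j (rf B w w') + em j (rf B w' w) + (B.f v v)⁻¹ • em j (rf B v v) := by
      rw [← map_smul, ← map_add, ← map_add, fr, map_one]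
    have l1 : em j (rf B w w) * γ = em j (rf B w w) * g w w' + (B.f v v)⁻¹ • (em j (rf B w v) * g w v) := by
      conv_lhs => rw [← mul_one (_ * γ), one]
      simp only [mul_add, mul_smul_comm, hg, c1 w hw, mul_zero, zero_add]
    have l2 : γ * em j (rf B w w) = em j (rf B w w) * g w' w + (B.f v v)⁻¹ • (em j (rf B v w) * g v w) := by
      conv_lhs => rw [← one_mul γ, one]
      simp only [add_mul, smul_mul_assoc, hg, c1 w hw, mul_zero, add_zero]
    have l3 : em j (rf B w w) * g v v = (B.f v v / 2) • (em j (rf B w w) * (g w w' + g w' w)) := by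
      rw [← mul_smul_comm, div_eq_mul_inv, mul_comm, mul_smul, ← k2, smul_smul, inv_mul_cancel₀ h2,
        one_smul]
    rw [tt_two h2, four hw v1, c1 w hw, sq hw v1] at m
    refine ⟨sk B w v, .inr ⟨w, hw, v, v1, notMem_of v3 (S _ _ ▸ v1), rfl⟩, -g v w, (gc _ _).neg,
      neg_ne_zero.2 n, ?_⟩
    convert m using 1
    simp only [map_sub, neg_mul, mul_neg, smul_mul_assoc, mul_smul_comm, mul_sub, sub_mul, hg, l1,
      l2, l3, k1, c1 w hw, mul_add, mul_zero]
    match_scalars <;> field_simp <;> ring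
  push Not at c2
  refine absurd (InC.of_cpt fun l => sc_of_sing H.toO3L fun w hw => ?_) hn
  obtain ⟨w', hw', e⟩ := H.hyp w hw
  obtain ⟨v, v1, -, v3, fr⟩ := H.frame w hw w' hw' e
  refine ⟨B.f (cpt j l γ *ᵥ w) w', (frame_exp fr _).trans ?_⟩
  rw [hc l w, hc l v, c1 w hw, c2 w hw w' hw' v e v1 v3 fr, map_zero, mul_zero, zero_smul, zero_smul,
    add_zero, add_zero]

end H44.O3
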