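/- C7-O4 tower, job Q: failure of (Q) gives all elements `1 + c N ⊗ ⋯ ⊗ ρ ⊗ ⋯ ⊗ N`. -/
import Cfsg.Agent.H60.WrO4Kit
import Cfsg.Agent.H3.C7BQ

set_option autoImplicit false

namespace H44.O4
open Module Matrix H60.Wr H19 Function H3.C7

universe u

variable {F : Type u} [Field F] {t : ℕ} {B : Frm (Fin 4) F} {M : Subgroup (GG 4 t F)}
  {w w' v v' x y z : Fin 4 → F} {α γ X : Mk 4 F} {p q r : Fin t → Mk 4 F} {d e : Fin t}
  {J : Finset (Fin t)}

/-- The skew map `x φ_y - y φ_x`. -/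
abbrev sk (B : Frm (Fin 4) F) (x y : Fin 4 → F) : Mk 4 F := rf B x y - rf B y x

theorem sym (H : O4 B) (x y : Fin 4 → F) : B.f y x = B.f x y := H.sy y x

theorem sk_sq (H : O4 B) (hw : B.f w w = 0) (hv : B.f v w = 0) :
    sk B w v * sk B w v = -(B.f v v • rf B w w) := by
  simp only [mul_sub, sub_mul, rf_mul_rf, hw, hv, sym H v w, zero_smul]
  abel

theorem sk_cube (H : O4 B) (hw : B.f w w = 0) (hv : B.f v w = 0) :
    sk B w v * (sk B w v * sk B w v) = 0 := by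
  rw [sk_sq H hw hv]
  simp [sub_mul, rf_mul_rf, hw, hv, sym H v w]

/-- `γ` generates all skew maps. -/
def Gs (B : Frm (Fin 4) F) (M : Subgroup (GG 4 t F)) (γ : Mk 4 F) : Prop :=
  ∀ x y, Cl (Gam M) γ (sk B x y)

theorem cj_sk {s : GL (Fin 4) F} (hs : s ∈ B.Iso) (x y : Fin 4 → F) :
    cj s (sk B x y) = sk B ((s : Mk 4 F) *ᵥ x) ((s : Mk 4 F) *ᵥ y) := by
  rw [map_sub, cj_rf hs, cj_rf hs]

theorem rf_sub_left (B : Frm (Fin 4) F) (x y z : Fin 4 → F) :
    rf B (x - y) z = rf B x z - rf B y z := ro_sub_left ..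

theorem comm_P (hp : P M p) (hq : P M q) (hr : ∀ j, j ≠ e → ∃ c, c ≠ 0 ∧
      p j * q j = (c : F) • r j ∧ q j * p j = (c : F) • r j) {a : F} (a0 : a ≠ 0)
    (he : p e * q e - q e * p e = a • X) (e1 : ∃ j, p j * p j = 0) (e2 : ∃ j, q j * q j = 0)
    (e3 : ∃ j, p j * q j * p j = 0) (e4 : ∃ j, q j * p j * q j = 0) : P M (update r e X) := by
  choose! c c0 h4 h5 using hr
  have U0 : ∏ j, update c e 1 j ≠ 0 := Finset.prod_ne_zero_iff.2 fun j _ => by
    by_cases n : j = e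
    · simp [n]
    · simpa [n] using c0 j n
  have k : ∀ {p q : Fin t → Mk 4 F}, (∀ j, j ≠ e → p j * q j = c j • r j) →
      pure (p * q) = (∏ j, update c e 1 j) • pure (update r e (p e * q e)) := fun {p q} a => by
    rw [← pure_smul]
    congr 1
    funext j
    by_cases n : j = e
    · simp [n]
    · simpa [n] using a j n
  intro s
  convert (hp (s / (a * ∏ j, update c e 1 j))).comm_pure (hq 1) e1 e2 e3 e4 using 2
  rw [k h4, k h5, ← smul_sub, ← pure_update_sub, he, pure_update_smul]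
  match_scalars
  field_simp

variable (H : O4M B M)

include H

theorem ex_eu (hw : w ∈ IsoV B) (hv : B.f v w = 0) : ∃ s ∈ Gam M, s ∈ B.Iso ∧ ∀ y,
    (s : Mk 4 F) *ᵥ y = y + B.f y v • w - B.f y w • v - (B.f v v / 2 * B.f y w) • w := by
  obtain ⟨s, hs, e⟩ := H.f.eich w hw v hv
  refine ⟨s, H.gam hs, comm_le _ hs, fun y => ?_⟩
  simp only [e, eu, sub_mulVec, add_mulVec, one_mulVec, smul_mulVec, rf_mulVec, smul_smul]
  abel

theorem ex_tr (hw : w ∈ IsoV B) (hz : z ∈ IsoV B) :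
    ∃ s ∈ Gam M, ∃ c : F, c ≠ 0 ∧ cj s (rf B w w) = c • rf B z z := by
  obtain ⟨s, hs, e⟩ := H.f.trx w hw z hz
  exact ⟨s, H.gam hs, 1, one_ne_zero, by rw [cj_rf (comm_le _ hs), e, one_smul]⟩

section step

variable (R : Fr4 B w w' v v') {S : Submodule F (Mk 4 F)} (hS : ∀ s ∈ Gam M, ∀ X ∈ S, cj s X ∈ S)
include R hS

theorem step1 (m : sk B w v ∈ S) : sk B w w' ∈ S ∧ sk B w' v ∈ S := by
  have h2 := H.f.two
  have v3 := R.vv
  have key : ∀ ε : F, ε = 1 ∨ ε = -1 →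
      sk B w v + (ε * B.f v v) • sk B w w' + (B.f v v / 2) • sk B w' v ∈ S := fun ε hε => by
    obtain ⟨s, hs, i, l⟩ := ex_eu H R.hw' (v := ε • v) (by rw [B.smul_left, R.vw', mul_zero])
    convert hS s hs _ m using 1
    rw [cj_sk i, l, l]
    simp only [B.smul_left, B.smul_right, H.f.sig, R.wv, R.ww, R.vw', sk, rf_add_left, rf_add_right,
      rf_sub_left, rf_sub_right, rf_smul_left, rf_smul_right]
    rcases hε with rfl | rfl <;> match_scalars <;> field_simp <;> ring1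
  have a := key 1 (.inl rfl)
  have b := key (-1) (.inr rfl)
  constructor
  · refine (S.smul_mem_iff (mul_ne_zero h2 v3)).1 ?_
    convert sub_mem a b using 1
    module
  · refine (S.smul_mem_iff v3).1 ?_
    convert sub_mem (add_mem a b) (S.smul_mem 2 m) using 1
    match_scalars <;> field_simp <;> ring

theorem step2 (m : sk B w w' ∈ S) : sk B w v ∈ S := by
  obtain ⟨s, hs, i, l⟩ := ex_eu H R.hw R.vw
  convert sub_mem m (hS s hs _ m) using 1
  rw [cj_sk i, l, l]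
  simp only [R.hw.2, R.wv, R.w'v, R.w'w H.f.toO4, sk, rf_add_left, rf_add_right,
    rf_sub_left, rf_sub_right, rf_smul_left, rf_smul_right, H.f.sig]
  module

theorem step3 (m : sk B w v ∈ S) (m2 : sk B w' v ∈ S) : sk B v v' ∈ S := by
  obtain ⟨s, hs, i, l⟩ := ex_eu H R.hw' R.uw'
  convert add_mem (sub_mem (hS s hs _ m) m) (S.smul_mem (B.f v' v' / 2) m2) using 1
  rw [cj_sk i, l, l]
  simp only [R.wu, R.ww, R.vu, R.vw', sk, rf_add_left, rf_add_right,
    rf_sub_left, rf_sub_right, rf_smul_left, rf_smul_right, H.f.sig]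
  module

end step

theorem gs_frame (R : Fr4 B w w' v v') : Gs B M (sk B w v) := by
  intro x y S hS m
  obtain ⟨m1, m2⟩ := step1 H R hS m
  have m3 := step2 H (R.swap H.f.toO4) hS m1
  have m4 := (step1 H (R.swap H.f.toO4) hS m3).2
  have m5 := step3 H R hS m m2
  rw [R.vec x, R.vec y]
  generalize B.f x w' = a1, B.f x w = a2, (B.f v v)⁻¹ * B.f x v = a3,
    (B.f v' v')⁻¹ * B.f x v' = a4, B.f y w' = b1, B.f y w = b2, (B.f v v)⁻¹ * B.f y v = b3,
    (B.f v' v')⁻¹ * B.f y v' = b4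
  convert add_mem (add_mem (add_mem (S.smul_mem (a1 * b3 - a3 * b1) m)
    (S.smul_mem (a1 * b2 - a2 * b1) m1)) (S.smul_mem (a2 * b3 - a3 * b2) m2))
    (add_mem (add_mem (S.smul_mem (a1 * b4 - a4 * b1) m3) (S.smul_mem (a2 * b4 - a4 * b2) m4))
      (S.smul_mem (a3 * b4 - a4 * b3) m5)) using 1
  simp only [sk, rf_add_left, rf_add_right, rf_smul_left, rf_smul_right, H.f.sig]
  module

theorem gs_rs (h : γ ∈ RS B) : Gs B M γ := by
  obtain ⟨w, hw, y, e, n, rfl⟩ := h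
  obtain ⟨w', hw', e'⟩ := H.f.hyp w hw
  obtain ⟨v', R⟩ := H.f.frv w hw w' hw' e' (y - B.f y w' • w)
    (fun l => n (Submodule.mem_span_singleton.2 ⟨_, (sub_eq_zero.1 l).symm⟩))
    (by rw [B.sub_left, B.smul_left, e, hw.2, mul_zero, sub_zero])
    (by rw [B.sub_left, B.smul_left, e', mul_one, sub_self])
  convert gs_frame H R using 1
  simp only [sk, rf_sub_left, rf_sub_right, rf_smul_left, rf_smul_right, H.f.sig]
  module

theorem gs_D (hw : w ∈ IsoV B) (hw' : w' ∈ IsoV B) (e : B.f w w' = 1) : Gs B M (sk B w w') := by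
  obtain ⟨v, v', R⟩ := H.f.frame w hw w' hw' e
  exact fun a b => Cl.trans (fun S hS m => step2 H R hS m) (gs_frame H R a b)

theorem cl_N (h : α ∈ RN B) (hz : z ∈ IsoV B) : Cl (Gam M) α (rf B z z) := fun S hS m => by
  obtain ⟨w, hw, rfl⟩ := h
  obtain ⟨s, hs, c, c0, e⟩ := ex_tr H hw hz
  exact (S.smul_mem_iff c0).1 (e ▸ hS s hs _ m)

theorem cjN (h : P M p) (he : p e ∈ RN B) (hz : z ∈ IsoV B) : P M (update p e (rf B z z)) := by
  obtain ⟨w, hw, l⟩ := he
  obtain ⟨s, hs, c, c0, e'⟩ := ex_tr H hw hz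
  intro a
  have := (h (a / c)).cj_pure e hs
  rwa [l, e', pure_update_smul, smul_smul, div_mul_cancel₀ _ c0] at this

theorem cube (h : γ ∈ RN B ∨ Gs B M γ) : ∃ β ν, Cl (Gam M) γ β ∧ ν ∈ RN B ∧ β * β * β = 0 ∧
    ∃ c : F, c ≠ 0 ∧ β * β = c • ν := by
  obtain ⟨w, hw⟩ := H.f.ex
  obtain ⟨w', v, v', R⟩ := H.f.toO4K.fr hw
  have v1 := R.vw
  have v3 := R.vv
  have S := sym H.f.toO4
  rcases h with h | h
  swap
  · exact ⟨_, _, h w v, ⟨w, hw, rfl⟩, by rw [mul_assoc, sk_cube H.f.toO4 hw.2 v1], -B.f v v,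
      neg_ne_zero.2 v3, by rw [sk_sq H.f.toO4 hw.2 v1, neg_smul]⟩
  have sq : (rf B w v + rf B v w) * (rf B w v + rf B v w) = B.f v v • rf B w w := by
    simp [mul_add, add_mul, rf_mul_rf, hw.2, v1, S v w]
  refine ⟨rf B w v + rf B v w, _, fun T hT m => ?_, ⟨w, hw, rfl⟩, by
    simp [sq, mul_add, rf_mul_rf, hw.2, v1], _, v3, sq⟩
  have h2 := H.f.two
  have key : ∀ a b : F, rf B
      (w' + (a • v + b • v') - ((a ^ 2 * B.f v v + b ^ 2 * B.f v' v') / 2) • w)
      (w' + (a • v + b • v') - ((a ^ 2 * B.f v v + b ^ 2 * B.f v' v') / 2) • w) ∈ T := fun a b => by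
    have := R.xs H.f.toO4 (y := a • v + b • v') (by simp [B.add_left, B.smul_left, R.vw, R.uw])
      (by simp [B.add_left, B.smul_left, R.vw', R.uw'])
    rw [show B.f (a • v + b • v') (a • v + b • v') = a ^ 2 * B.f v v + b ^ 2 * B.f v' v' by
      simp only [B.add_left, B.add_right, B.smul_left, H.f.toO4.smr, R.vu, R.uv]; ring] at this
    exact cl_N H h this T hT m
  refine (T.smul_mem_iff (mul_ne_zero h2 R.uu)).1 ?_
  convert sub_mem (T.smul_mem 2 (sub_mem (key 1 0) (key (-1) 0)))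
    (add_mem (sub_mem (key 1 1) (key (-1) (-1))) (sub_mem (key 1 (-1)) (key (-1) 1))) using 1
  simp only [rf_add_left, rf_add_right, rf_sub_left, rf_sub_right, rf_smul_left, rf_smul_right,
    H.f.sig]
  match_scalars <;> field_simp <;> ring

omit H in
/-- A state on `J` with `N` at `e`. -/
def St (B : Frm (Fin 4) F) (M : Subgroup (GG 4 t F)) (J : Finset (Fin t)) (e : Fin t) : Prop :=
  e ∈ J ∧ (∃ d ∈ J, d ≠ e) ∧ ∃ p, P M p ∧ (∀ j ∉ J, p j = 1) ∧ p e ∈ RN B ∧
    ∀ j ∈ J, p j ∈ RN B ∨ Gs B M (p j)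

omit H in
/-- A state on `J` with a skew map at `e` and `N` elsewhere. -/
def St' (B : Frm (Fin 4) F) (M : Subgroup (GG 4 t F)) (J : Finset (Fin t)) (e : Fin t) : Prop :=
  e ∈ J ∧ (∃ d ∈ J, d ≠ e) ∧ ∃ p, P M p ∧ (∀ j ∉ J, p j = 1) ∧ Gs B M (p e) ∧
    ∀ j ∈ J, j ≠ e → p j ∈ RN B

theorem St.self (h : St B M J e) : St' B M J e := by
  obtain ⟨he, ⟨d, hd, de⟩, p, hp, h1, h2, h3⟩ := h
  have : ∀ j, ∃ β ν, Cl (Gam M) (p j) β ∧ (j ∈ J → ν ∈ RN B ∧ β * β * β = 0) ∧ (j ∉ J → ν = 1) ∧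
      ∃ c : F, c ≠ 0 ∧ β * β = c • ν := fun j => by
    by_cases m : j ∈ J
    · obtain ⟨β, ν, a1, a2, a3, a4⟩ := cube H (h3 j m)
      exact ⟨β, ν, a1, fun _ => ⟨a2, a3⟩, fun n => absurd m n, a4⟩
    · exact ⟨p j, 1, .refl _, fun n => absurd n m, fun _ => rfl, 1, one_ne_zero, by simp [h1 j m]⟩
  choose β ν a1 a3 a4 a5 using this
  obtain ⟨x, hx, ex⟩ := id h2
  obtain ⟨x', hx', e1⟩ := H.f.hyp x hx
  have P1 := hp.slots (rn_sq h2) fun j _ => a1 j
  have P2 := cjN H P1 (e := e) (by simpa using h2) hx'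
  rw [update_idem] at P2
  have l := comm_P P1 P2 (e := e) (r := ν) (X := sk B x x') (fun j m => by
      obtain ⟨c, c0, l⟩ := a5 j
      exact ⟨c, c0, by simpa [m] using l⟩) one_ne_zero
    (by simp [ex, rf_mul_rf, e1, sym H.f.toO4 x x']) ⟨e, by simpa using rn_sq h2⟩
    ⟨e, by simpa using rn_sq ⟨x', hx', rfl⟩⟩ ⟨d, by simpa [de] using (a3 d hd).2⟩
    ⟨d, by simpa [de] using (a3 d hd).2⟩
  exact ⟨he, ⟨d, hd, de⟩, _, l, fun j m => by
    rw [update_of_ne (ne_of_mem_of_not_mem he m).symm, a4 j m],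
    by simpa using gs_D H hx hx' e1, fun j m n => by simpa [n] using (a3 j m).1⟩

theorem St'.grow (h : St' B M J d) {u : Fin t} (hu : u ∉ J) : St' B M (insert u J) d := by
  obtain ⟨hd, ⟨e, he, ed⟩, p, hp, h1, h2, h3⟩ := h
  have eu := ne_of_mem_of_not_mem he hu
  have du := ne_of_mem_of_not_mem hd hu
  obtain ⟨σ, s, s1, s2, s3, s4⟩ := exists_cyc ed.symm eu du
  have hq : P M (p ∘ σ.symm) := fun c => (hp c).perm_pure H.cyc s
  have qe : (p ∘ σ.symm) e = p d := congrArg p s1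
  have qu : (p ∘ σ.symm) u = p e := congrArg p s2
  have qd : (p ∘ σ.symm) d = 1 := (congrArg p s3).trans (h1 u hu)
  have qj : ∀ j, j ≠ d → j ≠ e → j ≠ u → (p ∘ σ.symm) j = p j := fun j a b c => congrArg p (s4 j a b c)
  generalize p ∘ σ.symm = q at hq qe qu qd qj
  have : ∀ j, ∃ α β ν, j ≠ e → Cl (Gam M) (p j) α ∧ Cl (Gam M) (q j) β ∧ (j = d → ν = p d) ∧
      (j ∈ insert u J → j ≠ d → ν ∈ RN B) ∧ (j = u → α = 1 ∧ β = q u) ∧ (j ∉ insert u J → ν = 1) ∧
      ∃ c, c ≠ 0 ∧ α * β = (c : F) • ν ∧ β * α = (c : F) • ν := fun j => by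
    by_cases m1 : j = d
    · exact ⟨p j, q j, p j, fun _ => ⟨.refl _, .refl _, fun n => n ▸ rfl, fun _ n => absurd m1 n,
        fun n => absurd (m1 ▸ n) du, h1 j ∘ fun n m => n (by simp [m]), 1, one_ne_zero,
        by simp [m1, qd]⟩⟩
    by_cases m2 : j = u
    · exact ⟨p j, q j, q j, fun _ => ⟨.refl _, .refl _, fun n => absurd n m1, fun _ _ => by
        simpa [m2, qu] using h3 e he ed, fun _ => ⟨m2 ▸ h1 u hu, m2 ▸ rfl⟩,
        fun n => absurd (by simp [m2]) n, 1, one_ne_zero, by simp [m2, h1 u hu]⟩⟩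
    by_cases m : j ∈ J
    · obtain ⟨β, ν, a1, a2, -, c, c0, a4⟩ := cube H (.inl (h3 j m m1))
      exact ⟨β, β, ν, fun n => ⟨a1, qj j m1 n m2 ▸ a1, fun n => absurd n m1, fun _ _ => a2,
        fun n => absurd n m2, fun n => absurd (by simp [m]) n, c, c0, a4, a4⟩⟩
    · exact ⟨p j, q j, 1, fun n => ⟨.refl _, .refl _, fun n => absurd n m1,
        fun n => absurd n (by simp [m, m2]), fun n => absurd n m2,
        fun _ => rfl, 1, one_ne_zero, by simp [qj j m1 n m2, h1 j m]⟩⟩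
  choose α β ν A using this
  obtain ⟨w, hw, ew⟩ := h3 e he ed
  obtain ⟨w', hw', e1⟩ := H.f.hyp w hw
  have e2 := (sym H.f.toO4 w w').trans e1
  have N2 : rf B w w * rf B w w = 0 := rn_sq ⟨w, hw, rfl⟩
  obtain ⟨au, bu⟩ := (A u eu.symm).2.2.2.2.1 rfl
  have P1 := hp.slots (q := α) (e := e) (ew ▸ N2) fun j m => (A j m).1
  have P2 := hq.slots (q := update β e (sk B w w')) (e := u) (by rw [qu, ew, N2]) fun j _ => by
    by_cases m : j = e
    · rw [m, update_self, qe]; exact h2 w w'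
    · simpa [m] using (A j m).2.1
  rw [update_eq_self_iff.2 (by rw [update_of_ne eu.symm, bu])] at P2
  have l := comm_P P1 P2 (e := e) (r := ν) (X := rf B w w) (fun j m => by
      simpa [m] using (A j m).2.2.2.2.2.2) (neg_ne_zero.2 H.f.two) (by
      simp only [update_self, ew, mul_sub, sub_mul, rf_mul_rf, hw.2, e1, e2]; module)
    ⟨e, by simpa [ew] using N2⟩ ⟨u, by simpa [eu.symm, bu, qu, ew] using N2⟩
    ⟨e, by simp [ew, mul_sub, rf_mul_rf, hw.2, e2]⟩ ⟨u, by simpa [eu.symm, au, bu, qu, ew] using N2⟩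
  refine ⟨by simp [hd], ⟨e, by simp [he], ed⟩, _, l, fun j m => ?_, ?_, fun j m n => ?_⟩
  · have : j ≠ e := fun n => m (by simp [n, he])
    rw [update_of_ne this, (A j this).2.2.2.2.2.1 m]
  · rwa [update_of_ne ed.symm, (A d ed.symm).2.2.1 rfl]
  by_cases n1 : j = e
  · exact ⟨w, hw, by simp [n1]⟩
  rw [update_of_ne n1]
  exact (A j n1).2.2.2.1 m n

theorem St'.univ (h : St' B M J d) (e : Fin t) : St' B M Finset.univ e := by
  induction hn : Jᶜ.card generalizing J with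
  | zero =>
    obtain rfl : J = Finset.univ := by simpa using hn
    by_cases n : e = d
    · rwa [n]
    obtain ⟨hd, -, p, hp, h1, h2, h3⟩ := h
    refine St.self H ⟨by simp, ⟨d, hd, Ne.symm n⟩, p, hp, h1, h3 e (by simp) n, fun j m => ?_⟩
    by_cases l : j = d
    exacts [.inr (l ▸ h2), .inl (h3 j m l)]
  | succ n ih =>
    obtain ⟨u, hu⟩ := Finset.card_pos.1 (n.succ_pos.trans_eq hn.symm)
    exact ih (h.grow H (Finset.mem_compl.1 hu))
      (by rw [Finset.compl_insert, Finset.card_erase_of_mem hu, hn]; rfl)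

theorem St'.allR (h : ∀ d, St' B M Finset.univ d) : AllR B M (-1) := fun d x hx y _ => by
  obtain ⟨-, ⟨j, -, jd⟩, p, hp, -, h2, h3⟩ := h d
  have hj := h3 j (by simp) jd
  have P1 := hp.slots (q := update (fun j => rf B (x j) (x j)) d
    (rf B (x d) y + (-1 : F) • rf B y (x d))) (rn_sq hj) fun i _ => by
    by_cases l : i = d
    · rw [l, update_self, neg_one_smul, ← sub_eq_add_neg]; exact h2 _ _
    · rw [update_of_ne l]; exact cl_N H (h3 i (by simp) l) (hx i)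
  have P2 := cjN H P1 (e := j) (by simpa using hj) (hx j)
  rwa [update_idem, update_eq_self_iff.2 (by rw [update_of_ne jd])] at P2

/-- A skew index makes all multiples available. -/
theorem all_mul {c : F} (c0 : c ≠ 0) (h : In M (1 + c • pure p)) (hd : p d ∈ RS B)
    (he : ∃ e, e ≠ d ∧ p e * p e = 0) : P M p := by
  obtain ⟨w, hw, v, e, -, l⟩ := hd
  obtain ⟨w', hw', e'⟩ := H.f.hyp w hw
  have m : p d ∈ slot M c p d he := by simpa [mem_slot] using h
  have h2 := H.f.two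
  have sq : ∀ a : F, a ^ 2 • p d ∈ slot M c p d he := fun a => by
    by_cases a0 : a = 0
    · simp [a0]
    obtain ⟨s, hs, k⟩ := H.f.tor w hw w' hw' e' a a0
    convert cj_mem_slot (H.gam hs) m using 1
    rw [l, cj_sk (comm_le _ hs), k]
    simp only [hh, add_mulVec, smul_mulVec, one_mulVec, rf_mulVec, e, e', hw.2, sk, rf_add_left,
      rf_add_right, rf_smul_left, rf_smul_right, H.f.sig]
    module
  intro a
  have : (a / c) • p d ∈ slot M c p d he := by
    convert sub_mem (sq ((a / c + 1) / 2)) (sq ((a / c - 1) / 2)) using 1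
    match_scalars
    field_simp
    ring
  rwa [mem_slot, pure_update_smul, update_eq_self, smul_smul, mul_div_cancel₀ _ c0] at this

theorem cj_AA {i j : Fin t} (hν : α ∈ RN B) (n : j ≠ i) {s : GL (Fin 4) F} (hs : s ∈ B.Iso)
    {Y : EE 4 t F} (hY : Y ∈ AA M i α (rn_sq hν)) : cj (emG j s) Y ∈ AA M i α (rn_sq hν) := by
  refine ⟨(InC.emG n.symm s).cj hY.1, ?_⟩
  obtain ⟨w, hw, rfl⟩ := id hν
  have hi := B.Iso.inv_mem hs
  obtain ⟨h, hh, e⟩ := H.f.trx (((s⁻¹ : GL (Fin 4) F) : Mk 4 F) *ᵥ w) ⟨fun l => hw.1 (by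
    simpa [mulVec_mulVec] using congrArg ((s : Mk 4 F) *ᵥ ·) l), (hi w w).trans hw.2⟩ w hw
  have m : emG j s * emG i (h * s⁻¹) ∈ M := by
    rw [map_mul, ← mul_assoc, emG_comm n, mul_assoc, map_inv]
    exact mul_mem (mem_Gam.1 (H.gam hh) i) (H.pair j i n s hs)
  have := hY.2.cj_one_add m
  rwa [map_mul, cj_mul, cj_mul, hY.1.cj_emG, cj_emG_em, cj_mul, cj_rf hi, cj_rf (comm_le _ hh), e,
    (InC.emG n.symm s).cj_em] at this

omit H in
theorem jobO4Q : JobO4Q.{u} := by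
  intro hI F _ _ t B M H hQ
  simp only [QQ, not_forall] at hQ
  obtain ⟨i, ν, hν, γ, h1, h2, h3⟩ := hQ
  have n0 : ∀ ν ∈ RN B, ν ≠ 0 := by
    rintro _ ⟨w, hw, rfl⟩
    exact rf_ne_zero hw.1 hw.1
  obtain ⟨J, p, r, -, hi, a1, a2, r0, m⟩ := chain (hI F t B H.f).1 (by
      rintro (h | ⟨w, hw, y, -, n, e⟩)
      · exact n0 _ h rfl
      · obtain ⟨v, v1, v2⟩ := exists_f_of_notMem (B := B) n
        have := congrArg (· *ᵥ v) e
        simp only [sub_mulVec, rf_mulVec, zero_mulVec, sym H.f.toO4 y v, v1,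
          B.eq_zero_comm.1 (v2 w (Submodule.mem_span_singleton_self _))] at this
        exact hw.1 (by simpa using this.symm)) i (AA M i ν (rn_sq hν))
    (fun j n s hs _ => cj_AA H hν n hs) (by simp)
    (fun _ m => m.1) (γ := γ) ⟨h1, h2⟩ h3
  have m' := m.2
  rw [mul_smul_comm, em_mul_pure, a2 i hi, mul_one] at m'
  obtain ⟨d, hd, ρ⟩ : ∃ d ∈ J, p d ∈ RS B := by
    by_contra! n
    have k : ∀ j, update p i ν j ∈ RN B ∨ update p i ν j = 1 := fun j => by
      by_cases l : j = i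
      · exact .inl (by simpa [l])
      rw [update_of_ne l]
      by_cases c : j ∈ J
      exacts [.inl ((a1 j c).resolve_right (n j c)), .inr (a2 j c)]
    have sk := (m'.mono H.le).skew (by
      rw [pure_smul_mul, pure_eq_zero (i := i) (by simpa using rn_sq hν), smul_zero])
    have e1 : (fun j => B.adj (update p i ν j)) = update p i ν := funext fun j => by
      rcases k j with ⟨w, -, l⟩ | l <;> rw [l]
      · rw [adj_rf, H.f.eps, one_smul]
      · exact B.adj_one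
    rw [Frm.adj_smul, B.adj_pow_pure, e1, pow_sig, H.f.sig, ← add_eq_zero_iff_eq_neg, ← two_smul F,
      smul_smul] at sk
    exact smul_ne_zero (mul_ne_zero H.f.two r0) (pure_ne_zero fun j => (k j).elim (n0 _)
      fun l => l ▸ one_ne_zero) sk
  have di := ne_of_mem_of_not_mem hd hi
  refine St'.allR H ((St.self H (J := insert i J) (e := i) ⟨by simp, ⟨d, by simp [hd], di⟩,
    update p i ν, all_mul H r0 m' (d := d) (by rwa [update_of_ne di])
      ⟨i, di.symm, by simpa using rn_sq hν⟩, fun j n => ?_, by simpa, fun j n => ?_⟩).univ H)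
  · rw [Finset.mem_insert, not_or] at n
    rw [update_of_ne n.1, a2 j n.2]
  by_cases l : j = i
  · exact .inl (by simpa [l])
  rw [update_of_ne l]
  exact (a1 j (by simpa [l] using n)).imp_right (gs_rs H)

end H44.O4
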