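/- C7-O4 tower, job ISO: the isolation property of `O₄⁻(q)`. -/
import Cfsg.Agent.H44.O4Q
import Cfsg.Agent.H44.O3Iso

set_option autoImplicit false

namespace H44.O4
open Module Matrix H60.Wr H19 Function H3.C7
open H44.O3 (ex ex_mul tt_two)

universe u

section alg
variable {F : Type u} [Field F] {A : Type*} [Ring A] [Algebra F A] {R R' : A}

/-- The map `S = T_1 + T_{-1}`. -/
def SS (F : Type u) [Field F] {A : Type*} [Ring A] [Algebra F A] (R X : A) : A :=
  H44.O3.TT R (1 : F) X + H44.O3.TT R (-1 : F) X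

theorem ss_ss (h2 : (2 : F) ≠ 0) (h : R * R' = 0) (h' : R' * R = 0) (X : A) :
    SS F R (SS F R' X) = R * R * X * (R' * R') + R' * R' * X * (R * R) := by
  have k : ∀ Y, R * (R' * Y) = 0 := fun Y => by rw [← mul_assoc, h, zero_mul]
  have k' : ∀ Y, R' * (R * Y) = 0 := fun Y => by rw [← mul_assoc, h', zero_mul]
  simp only [SS, tt_two h2, mul_add, add_mul, mul_sub, sub_mul, smul_mul_assoc, mul_smul_comm,
    mul_assoc, h', k, k', mul_zero, smul_zero, add_zero, sub_zero, zero_add]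

end alg

variable {F : Type u} [Field F] {t : ℕ} {B : Frm (Fin 4) F} {w w' v v' x y : Fin 4 → F}

theorem eu_eq (H : O4 B) (hw : B.f w w = 0) (hv : B.f v w = 0) (s : F) :
    eu B w (s • v) = ex (sk B w v) s := by
  have := H.two
  simp only [eu, ex, sk_sq H hw hv, rf_smul_left, rf_smul_right, B.smul_left, B.smul_right, H.sig]
  match_scalars <;> field_simp

theorem em_ex (j : Fin t) (a : Mk 4 F) (s : F) : (em j (ex a s) : EE 4 t F) = ex (em j a) s := by
  simp only [ex, map_add, map_one, map_smul, map_mul]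

/-- The additive group is stable under the maps `S`. -/
theorem ss_mem (H : O4F B) (hw : w ∈ IsoV B) (hv : B.f v w = 0) {j : Fin t}
    {ℬ : AddSubgroup (EE 4 t F)} (hB : ∀ s ∈ G0 B, ∀ X ∈ ℬ, cj (emG j s) X ∈ ℬ)
    {X : EE 4 t F} (hX : X ∈ ℬ) : SS F (em j (sk B w v)) X ∈ ℬ := by
  have key : ∀ s : F, H44.O3.TT (em j (sk B w v)) s X ∈ ℬ := fun s => by
    obtain ⟨g, hg, e⟩ := H.eich w hw (s • v) (by rw [B.smul_left, hv, mul_zero])
    rw [eu_eq H.toO4 hw.2 hv] at e
    have e' : ((g⁻¹ : GL (Fin 4) F) : Mk 4 F) = ex (sk B w v) (-s) :=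
      Units.inv_eq_of_mul_eq_one_right (by rw [e]; exact ex_mul H.two (sk_cube H.toO4 hw.2 hv) s)
    have := sub_mem (hB g hg X hX) hX
    rwa [cj_apply, ← map_inv, coe_emG, coe_emG, e, e', em_ex, em_ex] at this
  exact add_mem (key 1) (key (-1))

theorem em_sq (H : O4 B) (j : Fin t) (hw : w ∈ IsoV B) (hv : B.f v w = 0) :
    (em j (sk B w v) : EE 4 t F) * em j (sk B w v) = -(B.f v v • em j (rf B w w)) := by
  rw [← map_mul, sk_sq H hw.2 hv, map_neg, map_smul]

theorem isoN (H : O4F B) : IsoN t B := by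
  intro j ℬ hB γ hγ w hw
  obtain ⟨w', v, v', R⟩ := H.toO4K.fr hw
  have m := ss_mem H hw R.vw hB (ss_mem H hw R.uw hB hγ)
  rw [ss_ss H.two (by
      rw [← map_mul]; simp [mul_sub, sub_mul, rf_mul_rf, hw.2, R.wv, R.uw, R.uv]) (by
      rw [← map_mul]; simp [mul_sub, sub_mul, rf_mul_rf, hw.2, R.vw, R.wu, R.vu]),
    em_sq H.toO4 j hw R.vw, em_sq H.toO4 j hw R.uw] at m
  refine ⟨2 * (B.f v v * B.f v' v'), mul_ne_zero H.two (mul_ne_zero R.vv R.uu), ?_⟩
  convert m using 1
  have hg : em j (rf B w w) * γ * em j (rf B w w) = em j (rf B w w) * ct j (ph B w) w γ := ct_spec ..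
  simp only [neg_mul, mul_neg, smul_mul_assoc, mul_smul_comm, hg]
  module

theorem jobO4Iso : JobO4Iso.{u} := by
  intro F _ _ t B H
  refine ⟨?_, isoN H⟩
  intro j ℬ hI _ γ hγ hn
  have hB : ∀ s ∈ G0 B, ∀ X ∈ ℬ, cj (emG j s) X ∈ ℬ := fun s hs => hI s (comm_le _ hs)
  have h2 := H.two
  have S := sym H.toO4
  let g : (Fin 4 → F) → (Fin 4 → F) → EE 4 t F := fun x y => ct j (ph B x) y γ
  have hg : ∀ x y z v, em j (rf B x y) * γ * em j (rf B z v) = em j (rf B x v) * g y z :=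
    fun x y z v => ct_spec ..
  have gc : ∀ x y, InC j (g x y) := fun x y => ct_inC _ _ _ _
  have hc : ∀ (l : EE 4 t F →ₗ[F] F) x y, B.f (cpt j l γ *ᵥ y) x = l (g x y) := fun l x y => by
    rw [← ph_dot, cpt_spec]
  by_cases c1 : ∃ w ∈ IsoV B, g w w ≠ 0
  · obtain ⟨w, hw, n⟩ := c1
    obtain ⟨c, c0, m⟩ := isoN H j ℬ hB γ hγ w hw
    exact ⟨_, .inl ⟨w, hw, rfl⟩, _, (gc _ _).smul _, smul_ne_zero c0 n, m⟩
  push Not at c1
  have q : ∀ l : EE 4 t F →ₗ[F] F, ∃ c : F, ∀ x y, l (g x y) + l (g y x) = c * B.f x y := fun l => by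
    obtain ⟨c, e⟩ := H.quad (cpt j l γ) fun w hw => by rw [hc, c1 w hw, map_zero]
    refine ⟨c, fun x y => ?_⟩
    have := congrArg (fun Y => B.f (Y *ᵥ y) x) e
    simp only [add_mulVec, B.add_left, smul_mulVec, one_mulVec, B.smul_left, ← B.adj_right] at this
    rwa [S (cpt j l γ *ᵥ x), hc, hc, S x] at this
  by_cases c2 : ∃ w w' v v', Fr4 B w w' v v' ∧ g v w ≠ 0
  · obtain ⟨w, w', v, v', R, n⟩ := c2
    have hw := R.hw
    have v3 := R.vv
    have u3 := R.uu
    have k0 : ∀ x, B.f w x = 0 → g w x = -g x w := fun x e => by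
      rw [eq_neg_iff_add_eq_zero, ← Module.forall_dual_apply_eq_zero_iff F]
      intro l
      obtain ⟨c, hc⟩ := q l
      rw [map_add, hc, e, mul_zero]
    have k2 : (2 : F) • g v v = B.f v v • (g w w' + g w' w) := by
      rw [← sub_eq_zero, ← Module.forall_dual_apply_eq_zero_iff F]
      intro l
      obtain ⟨c, hc⟩ := q l
      rw [map_sub, map_smul, map_smul, map_add, hc, R.ww, smul_eq_mul, smul_eq_mul, two_mul, hc]
      ring
    have m := ss_mem H hw R.vw hB hγ
    have one : (1 : EE 4 t F) = em j (rf B w w') + em j (rf B w' w) +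
        ((B.f v v)⁻¹ • em j (rf B v v) + (B.f v' v')⁻¹ • em j (rf B v' v')) := by
      rw [← map_smul, ← map_smul, ← map_add, ← map_add, ← map_add, ← pj, R.one, map_one]
    have l1 : em j (rf B w w) * γ = em j (rf B w w) * g w w' +
        ((B.f v v)⁻¹ • (em j (rf B w v) * g w v) + (B.f v' v')⁻¹ • (em j (rf B w v') * g w v')) := by
      conv_lhs => rw [← mul_one (_ * γ), one]
      simp only [mul_add, mul_smul_comm, hg, c1 w hw, mul_zero, zero_add]
    have l2 : γ * em j (rf B w w) = em j (rf B w w) * g w' w +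
        ((B.f v v)⁻¹ • (em j (rf B v w) * g v w) + (B.f v' v')⁻¹ • (em j (rf B v' w) * g v' w)) := by
      conv_lhs => rw [← one_mul γ, one]
      simp only [add_mul, smul_mul_assoc, hg, c1 w hw, mul_zero, add_zero]
    have l3 : em j (rf B w w) * g v v = (B.f v v / 2) • (em j (rf B w w) * (g w w' + g w' w)) := by
      rw [← mul_smul_comm, div_eq_mul_inv, mul_comm, mul_smul, ← k2, smul_smul, inv_mul_cancel₀ h2,
        one_smul]
    have m1 : em j (sk B w v) * -g v w +
        em j (sk B w v') * ((B.f v v / B.f v' v') • g v' w) ∈ ℬ := by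
      have z : em j (sk B w v) * em j (sk B w v) * γ * (em j (sk B w v) * em j (sk B w v)) = 0 := by
        simp only [em_sq H.toO4 j hw R.vw, neg_mul, mul_neg, smul_mul_assoc, mul_smul_comm, hg,
          c1 w hw, mul_zero, smul_zero, neg_zero]
      rw [SS, tt_two h2, z, em_sq H.toO4 j hw R.vw] at m
      convert m using 1
      simp only [map_sub, neg_mul, mul_neg, smul_mul_assoc, mul_smul_comm, mul_sub, sub_mul, hg, l1,
        l2, l3, k0 v R.wv, k0 v' R.wu, c1 w hw, mul_add, mul_zero]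
      match_scalars <;> field_simp <;> ring
    obtain ⟨s, hs, e⟩ := H.rlI v' u3
    have m2 := add_mem m1 (hI s hs _ m1)
    have e1 : cj s (sk B w v) = sk B w v := by
      rw [cj_sk hs, e, rl_mulVec, rl_mulVec, R.wu, R.vu]; simp
    have e2 : cj s (sk B w v') = -sk B w v' := by
      rw [cj_sk hs, e, rl_mulVec, rl_mulVec, R.wu, div_mul_cancel₀ _ u3]
      simp only [sk, rf_sub_left, rf_sub_right, rf_smul_left, rf_smul_right, H.sig]
      module
    rw [map_add, map_mul, map_mul, cj_emG_em, cj_emG_em, e1, e2, (gc v w).neg.cj_emG,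
      ((gc v' w).smul _).cj_emG] at m2
    refine ⟨sk B w v, .inr ⟨w, hw, v, R.vw, R.notMem, rfl⟩, (2 : F) • -g v w, (gc _ _).neg.smul _,
      smul_ne_zero h2 (neg_ne_zero.2 n), ?_⟩
    convert m2 using 1
    rw [map_neg, neg_mul, mul_smul_comm, two_smul]
    abel
  push Not at c2
  refine absurd (InC.of_cpt fun l => H.sci _ fun w hw => ?_) hn
  obtain ⟨w', v, v', R⟩ := H.toO4K.fr hw
  refine ⟨B.f (cpt j l γ *ᵥ w) w', (R.vec _).trans ?_⟩
  rw [hc l w, hc l v, hc l v', c1 w hw, c2 _ _ _ _ R, c2 _ _ _ _ (R.swap H.toO4), map_zero]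
  simp

end H44.O4
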