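/- C7-O4 tower, slot K: linear algebra of a symmetric form of Witt index one in dimension four. -/
import Cfsg.Agent.H60.WrO4Kit
import Cfsg.Agent.H73.WrGFO
import Cfsg.Agent.H49.C7BQL

set_option autoImplicit false

namespace H44.O4K
open Cfsg Cfsg.Geo Matrix H19 H60.Wr Module
open scoped MatrixGroups commutatorElement

universe u

variable {F : Type u} [Field F] {B : Frm (Fin 4) F} {w w' v v' x y z p : Fin 4 → F} {X Y : Mk 4 F}

theorem span4 (h : ∀ a b c d : F, a • x + b • y + (c • z + d • p) = 0 →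
    a = 0 ∧ b = 0 ∧ c = 0 ∧ d = 0) (u : Fin 4 → F) :
    ∃ a b c d : F, u = a • x + b • y + (c • z + d • p) := by
  have hl : LinearIndependent F ![x, y, z, p] := Fintype.linearIndependent_iff.2 fun g hg i => by
    obtain ⟨h0, h1, h2, h3⟩ := h (g 0) (g 1) (g 2) (g 3)
      (by simpa [Fin.sum_univ_four, add_assoc] using hg)
    fin_cases i <;> assumption
  have := hl.span_eq_top_of_card_eq_finrank' (by simp)
  obtain ⟨g, hg⟩ := (Submodule.mem_span_range_iff_exists_fun F).1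
    (this ▸ Submodule.mem_top (x := u))
  exact ⟨g 0, g 1, g 2, g 3, by simpa [Fin.sum_univ_four, add_assoc] using hg.symm⟩

theorem perp3 (B : Frm (Fin 4) F) (x y z : Fin 4 → F) :
    ∃ v, v ≠ 0 ∧ B.f v x = 0 ∧ B.f v y = 0 ∧ B.f v z = 0 := by
  classical
  obtain ⟨v, h0, h⟩ := H49.BQL.exists_perp B {x, y, z}
    (lt_of_le_of_lt Finset.card_le_three (by decide))
  exact ⟨v, h0, h x (by simp), h y (by simp), h z (by simp)⟩

theorem hyp (H : O4 B) (hw : w ∈ IsoV B) : ∃ w' ∈ IsoV B, B.f w w' = 1 := by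
  obtain ⟨y, hy⟩ := exists_f_one (B := B) hw.1
  have h1 : B.f w (y - (B.f y y / 2) • w) = 1 := by
    rw [B.sub_right, H.smr, hw.2, H.sy, hy]; simp
  refine ⟨y - (B.f y y / 2) • w, ⟨fun e => by simp [e] at h1, ?_⟩, h1⟩
  have := H.two
  simp only [B.sub_left, B.sub_right, B.smul_left, H.smr, hw.2, H.sy w y, hy]
  field_simp
  ring

theorem anis (H : O4 B) (hw : w ∈ IsoV B) (h : B.f w w' = 1) (h0 : v ≠ 0) (h1 : B.f v w = 0)
    (h2 : B.f v w' = 0) : B.f v v ≠ 0 := fun e => by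
  obtain ⟨c, rfl⟩ := Submodule.mem_span_singleton.1 (H.ns w hw v h1 e)
  rw [B.smul_left, h, mul_one] at h2
  exact h0 (by rw [h2, zero_smul])

theorem frv (H : O4 B) (hw : w ∈ IsoV B) (hw' : w' ∈ IsoV B) (h : B.f w w' = 1) (h0 : v ≠ 0)
    (h1 : B.f v w = 0) (h2 : B.f v w' = 0) : ∃ v', Fr4 B w w' v v' := by
  obtain ⟨v', k0, k1, k2, k3⟩ := perp3 B w w' v
  have n := anis H hw h h0 h1 h2
  have n' := anis H hw h k0 k1 k2
  have h' : B.f w' w = 1 := (H.sy _ _).trans h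
  have k4 : B.f v v' = 0 := (H.sy _ _).trans k3
  have hs := span4 (x := w) (y := w') (z := v) (p := v') fun a b c d e => by
    have e1 := congrArg (B.f · w') e
    have e2 := congrArg (B.f · w) e
    have e3 := congrArg (B.f · v) e
    have e4 := congrArg (B.f · v') e
    simp only [B.add_left, B.smul_left, hw.2, hw'.2, h, h', h1, h2, k1, k2, k3, k4, H.sy w v,
      H.sy w' v, H.sy w v', H.sy w' v', B.zero_left, mul_zero, mul_one, add_zero, zero_add,
      mul_eq_zero, n, n', or_false] at e1 e2 e3 e4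
    exact ⟨e1, e2, e3, e4⟩
  refine ⟨v', hw, hw', h, h1, h2, k1, k2, k4, n, n', ext_mulVec fun u => ?_⟩
  obtain ⟨a, b, c, d, rfl⟩ := hs u
  simp only [add_mulVec, rf_mulVec, pj_mulVec, one_mulVec, B.add_left, B.smul_left, hw.2, hw'.2, h,
    h', h1, h2, k1, k2, k3, k4, H.sy w v, H.sy w' v, H.sy w v', H.sy w' v', mul_zero, mul_one,
    add_zero, zero_add]
  match_scalars <;> field_simp

theorem frame (H : O4 B) (hw : w ∈ IsoV B) (hw' : w' ∈ IsoV B) (h : B.f w w' = 1) :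
    ∃ v v', Fr4 B w w' v v' := by
  obtain ⟨v, h0, h1, h2, -⟩ := perp3 B w w' w
  exact ⟨v, frv H hw hw' h h0 h1 h2⟩

theorem fr (H : O4 B) (hw : w ∈ IsoV B) : ∃ w' v v', Fr4 B w w' v v' := by
  obtain ⟨w', hw', h⟩ := hyp H hw
  exact ⟨w', frame H hw hw' h⟩

theorem vext (R : Fr4 B w w' v v') (h1 : B.f x w = B.f y w) (h2 : B.f x w' = B.f y w')
    (h3 : B.f x v = B.f y v) (h4 : B.f x v' = B.f y v') : x = y := by
  rw [R.vec x, h1, h2, h3, h4, ← R.vec y]

theorem quad (H : O4 B) (he : (IsoV B).Nonempty) (hX : ∀ w ∈ IsoV B, B.f (X *ᵥ w) w = 0) :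
    Sc (X + B.adj X) := by
  obtain ⟨w, hw⟩ := he
  obtain ⟨w', v, v', R⟩ := fr H hw
  have e0 := hX w R.hw
  have e1 := hX w' R.hw'
  have h2 := H.two
  have key : ∀ y, B.f y w = 0 → B.f y w' = 0 →
      2 * B.f (X *ᵥ y) y = B.f y y * (B.f (X *ᵥ w) w' + B.f (X *ᵥ w') w) ∧
      2 * (B.f (X *ᵥ w') y + B.f (X *ᵥ y) w') =
        B.f y y * (B.f (X *ᵥ y) w + B.f (X *ᵥ w) y) := fun y a1 a2 => by
    have p1 := hX _ (R.xs H a1 a2)
    have p2 := hX _ (R.xs H (y := -y) (by rw [B.neg_left, a1, neg_zero])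
      (by rw [B.neg_left, a2, neg_zero]))
    obtain ⟨m, hm⟩ : ∃ m, B.f y y / 2 = m := ⟨_, rfl⟩
    have hm2 : B.f y y = 2 * m := by rw [← hm]; field_simp
    simp only [mulVec_add, mulVec_sub, mulVec_smul, mulVec_neg, B.add_left, B.sub_left, B.smul_left,
      B.add_right, B.sub_right, B.neg_left, B.neg_right, neg_neg, H.smr, e0, e1, hm] at p1 p2
    rw [hm2]
    exact ⟨by linear_combination p1 + p2, by linear_combination p1 - p2⟩
  obtain ⟨a1, b1⟩ := key v R.vw R.vw'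
  obtain ⟨a2, b2⟩ := key v' R.uw R.uw'
  obtain ⟨a3, b3⟩ := key (v + v') (by rw [B.add_left, R.vw, R.uw, add_zero])
    (by rw [B.add_left, R.vw', R.uw', add_zero])
  obtain ⟨-, b4⟩ := key (v - v') (by rw [B.sub_left, R.vw, R.uw, sub_zero])
    (by rw [B.sub_left, R.vw', R.uw', sub_zero])
  simp only [mulVec_add, mulVec_sub, B.add_left, B.add_right, B.sub_left, B.sub_right, R.vu,
    R.uv] at a3 b3 b4
  have c1 : B.f (X *ᵥ v) v' + B.f (X *ᵥ v') v = 0 := by
    apply mul_left_cancel₀ h2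
    linear_combination a3 - a1 - a2
  have c2 : B.f (X *ᵥ v) w + B.f (X *ᵥ w) v = 0 := by
    apply mul_left_cancel₀ (mul_ne_zero h2 R.uu)
    linear_combination 2 * b1 - b3 - b4
  have c3 : B.f (X *ᵥ v') w + B.f (X *ᵥ w) v' = 0 := by
    apply mul_left_cancel₀ (mul_ne_zero h2 R.vv)
    linear_combination 2 * b2 - b3 + b4
  have c4 : B.f (X *ᵥ w') v + B.f (X *ᵥ v) w' = 0 := by
    apply mul_left_cancel₀ h2
    rw [b1, c2]; simp
  have c5 : B.f (X *ᵥ w') v' + B.f (X *ᵥ v') w' = 0 := by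
    apply mul_left_cancel₀ h2
    rw [b2, c3]; simp
  have hS : ∀ x y, B.f ((X + B.adj X) *ᵥ x) y = B.f (X *ᵥ x) y + B.f (X *ᵥ y) x := fun x y => by
    rw [add_mulVec, B.add_left, ← B.adj_right, H.sy x]
  refine ⟨B.f (X *ᵥ w) w' + B.f (X *ᵥ w') w, R.mat ?_ ?_ ?_ ?_⟩ <;>
    refine vext R ?_ ?_ ?_ ?_ <;>
    simp only [hS, smul_mulVec, one_mulVec, B.smul_left, R.hw.2, R.hw'.2, R.ww, R.w'w H, R.vw, R.vw',
      R.uw, R.uw', R.wv, R.w'v, R.wu, R.w'u, R.vu, R.uv, e0, e1]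
  all_goals first
    | ring1 | linear_combination c1 | linear_combination c2 | linear_combination c3
    | linear_combination c4 | linear_combination c5 | linear_combination a1 | linear_combination a2

theorem sp (H : O4 B) (he : (IsoV B).Nonempty) {u : Fin 4 → F} (hu : u ≠ 0) :
    Submodule.span F {y | y ∈ IsoV B ∧ B.f u y ≠ 0} = ⊤ := by
  rw [eq_top_iff]
  intro x _
  refine mem_of_forall_dot fun φ hφ => ?_
  obtain ⟨z, rfl⟩ := exists_ph B φ
  obtain ⟨c, hc⟩ := quad H he (X := rf B u z) fun y hy => by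
    rw [rf_mulVec, B.smul_left]
    by_cases h : B.f u y = 0
    · rw [h, mul_zero]
    · rw [← ph_dot, hφ y (Submodule.subset_span ⟨hy, h⟩), zero_mul]
  rw [H.adj_rf] at hc
  have hm : ∀ y, B.f y z • u + B.f y u • z = c • y := fun y => by
    simpa only [add_mulVec, rf_mulVec, smul_mulVec, one_mulVec] using congrArg (· *ᵥ y) hc
  obtain ⟨p, p0, p1, p2, -⟩ := perp3 B u z z
  have hc0 : c = 0 := by simpa [p1, p2, p0] using (hm p).symm
  obtain ⟨y, hy⟩ := exists_f_one (B := B) hu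
  have e1 := hm y
  rw [hc0, zero_smul, hy, one_smul] at e1
  have e2 := congrArg (fun t => B.f y t) e1
  simp only [B.add_right, H.smr, hy, B.zero_right, mul_one] at e2
  have e3 : B.f y z = 0 := by
    apply mul_left_cancel₀ H.two
    linear_combination e2
  rw [e3, zero_smul, zero_add] at e1
  simp [e1, ph_zero]

theorem sci (H : O4 B) (he : (IsoV B).Nonempty) (h : ∀ w ∈ IsoV B, ∃ c : F, X *ᵥ w = c • w) :
    Sc X := by
  obtain ⟨c, hc⟩ := quad H he (X := X) fun w hw => by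
    obtain ⟨c, e⟩ := h w hw
    rw [e, B.smul_left, hw.2, mul_zero]
  have key : ∀ x y a b, X *ᵥ x = (a : F) • x → X *ᵥ y = (b : F) • y → B.f x y ≠ 0 → a + b = c :=
    fun x y a b e1 e2 n => mul_right_cancel₀ n (by
      have := congrArg (fun Y => B.f (Y *ᵥ x) y) hc
      simp only [add_mulVec, B.add_left, smul_mulVec, one_mulVec, B.smul_left, ← B.adj_right, e1, e2,
        B.smul_right, H.sig] at this
      rw [add_mul, this])
  have all : ∀ w ∈ IsoV B, X *ᵥ w = (c / 2) • w := fun w hw => by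
    obtain ⟨w', v, v', R⟩ := fr H hw
    have h2 := H.two
    have e1 : B.f (w' + v - (B.f v v / 2) • w) w = 1 := by
      simp [B.sub_left, B.add_left, B.smul_left, R.w'w H, R.vw, hw.2]
    have e2 : B.f (w' + v - (B.f v v / 2) • w) w' = -(B.f v v / 2) := by
      simp [B.sub_left, B.add_left, B.smul_left, R.ww, R.vw', R.hw'.2]
    obtain ⟨a, ha⟩ := h w hw
    obtain ⟨b, hb⟩ := h w' R.hw'
    obtain ⟨d, hd⟩ := h _ (R.xs H R.vw R.vw')
    have k1 := key _ _ _ _ ha hb (R.ww ▸ one_ne_zero)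
    have k2 := key _ _ _ _ hd ha (e1 ▸ one_ne_zero)
    have k3 := key _ _ _ _ hd hb (e2 ▸ neg_ne_zero.2 (div_ne_zero R.vv h2))
    rw [ha, show a = c / 2 by field_simp; linear_combination k1 + k2 - k3]
  obtain ⟨w, hw⟩ := he
  refine ⟨c / 2, ext_mulVec fun y => ?_⟩
  have hy : y ∈ Submodule.span F {y | y ∈ IsoV B ∧ B.f w y ≠ 0} := by
    rw [sp H ⟨w, hw⟩ hw.1]; trivial
  rw [smul_mulVec, one_mulVec]
  induction hy using Submodule.span_induction with
  | mem y hy => exact all y hy.1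
  | zero => simp
  | add x y _ _ p q => rw [mulVec_add, p, q, smul_add]
  | smul a x _ p => rw [mulVec_smul, p, smul_comm]

theorem fix (R : Fr4 B w w' v v') (e : eu B w v *ᵥ y = y) :
    B.f y w = 0 ∧ B.f y v = 0 := by
  rw [eu_mulVec4] at e
  have a1 := congrArg (fun y => B.f y v) e
  have a2 := congrArg (fun y => B.f y w') e
  simp only [B.add_left, B.sub_left, B.smul_left, R.ww, R.vw', R.wv] at a1 a2
  have c1 : B.f y w = 0 := by
    apply mul_left_cancel₀ R.vv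
    linear_combination -a1
  exact ⟨c1, by linear_combination a2 + B.f v v / 2 * c1⟩

theorem cent (H : O4 B) (he : (IsoV B).Nonempty)
    (hX : ∀ w ∈ IsoV B, ∀ v, B.f v w = 0 → X * eu B w v = eu B w v * X) : Sc X := by
  refine sci H he fun w hw => ?_
  obtain ⟨w', v, v', R⟩ := fr H hw
  have k : ∀ v, B.f v w = 0 → eu B w v *ᵥ (X *ᵥ w) = X *ᵥ w := fun v h => by
    rw [mulVec_mulVec, ← hX w hw v h, ← mulVec_mulVec, eu_mulVec4]
    simp [hw.2, H.sy w v, h]
  obtain ⟨c1, c2⟩ := fix R (k v R.vw)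
  obtain ⟨-, c3⟩ := fix (R.swap H) (k v' R.uw)
  refine ⟨B.f (X *ᵥ w) w', (R.vec _).trans ?_⟩
  simp [c1, c2, c3]

theorem sim (H : O4 B) (he : (IsoV B).Nonempty) (h1 : Sc (B.adj X * X))
    (h2 : Sc (X + B.adj X)) : Sc X := by
  obtain ⟨κ, hκ⟩ := h1
  obtain ⟨τ, hτ⟩ := h2
  refine sci H he fun w hw => ?_
  have a1 : B.f (X *ᵥ w) (X *ᵥ w) = 0 := by
    rw [B.adj_right, mulVec_mulVec, hκ, smul_mulVec, one_mulVec, B.smul_left, hw.2, mul_zero]
  have a2 : B.f (X *ᵥ w) w = 0 := by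
    have := congrArg (fun Y => B.f (Y *ᵥ w) w) hτ
    simp only [add_mulVec, B.add_left, ← B.adj_right, H.sy w (X *ᵥ w), smul_mulVec, one_mulVec,
      B.smul_left, hw.2, mul_zero] at this
    apply mul_left_cancel₀ H.two
    linear_combination this
  obtain ⟨c, hc⟩ := Submodule.mem_span_singleton.1 (H.ns w hw _ a2 a1)
  exact ⟨c, hc.symm⟩

theorem jobO4K : JobO4K.{u} := by
  intro F _ _ B H
  have he : (IsoV B).Nonempty := by
    obtain ⟨Q, -, hs⟩ := H73.WrO.exists_quad B H.sig H.eps H.two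
    obtain ⟨x, -, h0, hx⟩ := H60.exists_sing (Q := Q) ⊤ (by simp)
    exact ⟨x, h0, (hs x).2 hx⟩
  exact ⟨H, he, fun w hw => hyp H hw, fun w hw w' hw' h => frame H hw hw' h,
    fun w hw w' hw' h v => frv H hw hw' h, fun u hu => sp H he hu, fun X => quad H he,
    fun X => sci H he, fun X => cent H he, fun X => sim H he,
    fun e h => in_Iso_of (by rw [H.adj_rl, rl_sq h])⟩

end H44.O4K
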