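/- C7-O4 tower, slot M: the context for an overgroup. -/
import Cfsg.Agent.H60.WrO4Kit
import Cfsg.Agent.H60.WrTop

set_option autoImplicit false

namespace H44.O4M
open Cfsg Cfsg.Geo Matrix H19 H60 H60.Wr Module
open scoped MatrixGroups commutatorElement

universe u

variable {F : Type u} [Field F] {t : ℕ} {B : Frm (Fin 4) F} {a b c d : Fin 4 → F}
  {Q : QuadraticForm F (VV 4 t F)} {g : GG 4 t F}

theorem mem_iso (h : QF B Q) (h2 : (2 : F) ≠ 0) (hg : g ∈ (B.pow t).Iso) :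
    g ∈ isometryGroup F Q := by
  obtain ⟨c, -, e⟩ := h.pol
  refine mem_isometryGroup.2 fun v => mul_left_cancel₀ h2 ?_
  have : QuadraticMap.polar Q ((g : EE 4 t F) *ᵥ v) ((g : EE 4 t F) *ᵥ v) =
      QuadraticMap.polar Q v v := by rw [e, e, (B.pow t).mem_Iso.1 hg]
  rwa [QuadraticMap.polar_self, QuadraticMap.polar_self, two_nsmul, two_nsmul, ← two_mul,
    ← two_mul] at this

/-- Squares of isometries lie in `Ω`. -/
theorem sq_mem (h : QF B Q) (ht : 2 ≤ t) (hg : g ∈ isometryGroup F Q) : g * g ∈ omegaGL ⇑Q := by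
  have n4 : finrank F (VV 4 t F) ≠ 4 := by
    rw [finrank_V]
    have := Nat.pow_le_pow_right (show 0 < 4 by decide) ht
    omega
  have := H56.eq_top_of_refl_mem h.nondeg (H56.not_isExc_of_finrank n4)
    (H := ((powMonoidHom 2).comp Abelianization.of).ker) fun v _ => by
      rw [MonoidHom.mem_ker, MonoidHom.comp_apply, powMonoidHom_apply, ← map_pow, H56.refl_sq,
        map_one]
  have h1 := this.ge (Subgroup.mem_top (H56.toO Q rfl ⟨g, hg⟩))
  rw [MonoidHom.mem_ker, MonoidHom.comp_apply, powMonoidHom_apply, ← map_pow, ← MonoidHom.mem_ker,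
    Abelianization.ker_of] at h1
  rw [omegaGL_eq]
  exact ⟨_, h1, by simp [toGL, pow_two]⟩

theorem root {R : Type*} [Ring R] {p J : R} (h1 : p * p = p) (h2 : J * J = -1)
    (h3 : J * p = p * J) : (1 - p - p * J) * (1 - p + p * J) = 1 ∧
      (1 - p + p * J) * (1 - p + p * J) = 1 - (p + p) := by
  have e1 : p * (p * J) = p * J := by rw [← mul_assoc, h1]
  have e2 : p * J * p = p * J := by rw [mul_assoc, h3, e1]
  have e3 : p * J * (p * J) = -p := by rw [← mul_assoc, e2, mul_assoc, h2, mul_neg, mul_one]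
  constructor <;> simp only [mul_add, add_mul, mul_sub, sub_mul, mul_one, one_mul, h1, e1, e2, e3] <;>
    abel

theorem cx {R : Type*} [Ring R] [Algebra F R] {j J D p : R} {μ : F} (hμ : μ ≠ 0)
    (h1 : j * j = p - 1) (h2 : j * J = 0) (h3 : J * j = 0) (h4 : J * J = -μ • p)
    (h5 : D * D = μ • 1) (h6 : D * j = j * D) (h7 : D * J = J * D) :
    (j + μ⁻¹ • (J * D)) * (j + μ⁻¹ • (J * D)) = -1 := by
  have e1 : J * D * j = 0 := by rw [mul_assoc, h6, ← mul_assoc, h3, zero_mul]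
  have e2 : J * D * (J * D) = -(μ * μ) • p := by
    rw [mul_assoc, ← mul_assoc D, h7, mul_assoc, h5, ← mul_assoc, h4]
    simp [smul_smul]
  simp only [mul_add, add_mul, smul_mul_assoc, mul_smul_comm, h1, e1, e2, ← mul_assoc j, h2,
    zero_mul, smul_zero]
  match_scalars <;> field_simp
  ring1

/-- A self-adjoint matrix with square `f(c,c) f(d,d)`. -/
theorem exists_delta [Finite F] (H : O4 B) (O : Ob B a b c d) (m : B.f a a = B.f b b) :
    ∃ δ : Mk 4 F, B.adj δ = δ ∧ δ * δ = (B.f c c * B.f d d) • 1 := by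
  obtain ⟨x, y, e⟩ := rep2 H.two one_ne_zero one_ne_zero (B.f c c * B.f d d)
  have O' := O.symm H
  have h1 := O.bb
  have h2 := O.cc
  have h3 := O.dd
  refine ⟨(x / B.f b b) • (rf B a a - rf B b b) + (y / B.f b b) • (rf B a b + rf B b a) +
    (rf B d c + rf B c d), ?_, ?_⟩
  · simp only [B.adj_add, B.adj_sub, H.adj_smul, H.adj_rf, add_comm]
  · rw [← O.one]
    simp only [pj, mul_add, add_mul, mul_sub, sub_mul, smul_mul_assoc, mul_smul_comm, rf_mul_rf, m,
      O.ab, O.ac, O.ad, O.bc, O.bd, O.cd, O'.ac, O'.ad, O'.bc, O'.bd, H.sy b a, H.sy d c]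
    match_scalars <;> field_simp <;> first | ring1 | linear_combination B.f b b * e

theorem exists_J [Finite F] (H : O4F B) {j l : Fin t} (hjl : j ≠ l) :
    ∃ J : EE 4 t F, J * J = -1 ∧ (B.pow t).adj J = -J ∧ ∀ i, i ≠ j → i ≠ l → InC i J := by
  obtain ⟨ξ, -, a, b, c, d, -, O, m, -⟩ := H.exx
  have H4 : O4 B := H.toO4E.toO4L.toO4K.toO4
  obtain ⟨δ, d1, d2⟩ := exists_delta H4 O m
  have O' := O.symm H4
  have h2 := O.cc
  have h3 := O.dd
  refine ⟨em j (jj B a b) + (B.f c c * B.f d d)⁻¹ • (em j (rf B d c - rf B c d) * em l δ),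
    cx (p := em j (pj B c d)) (mul_ne_zero h2 h3) ?_ ?_ ?_ ?_ ?_ (em_comm hjl.symm _ _)
      (em_comm hjl.symm _ _), ?_, fun i h1 h2 => (InA.inC (InA.em j _) h1).add
      (((InA.inC (InA.em j _) h1).mul (InA.inC (InA.em l _) h2)).smul _)⟩
  · rw [← map_mul, O.jj_sq m, map_sub, map_one]
  · rw [← map_mul, ← map_zero (em j)]
    simp [jj, mul_sub, sub_mul, rf_mul_rf, O'.ac, O'.ad, O'.bc, O'.bd]
  · rw [← map_mul, ← map_zero (em j)]
    simp [jj, mul_sub, sub_mul, rf_mul_rf, O.ac, O.ad, O.bc, O.bd]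
  · rw [← map_mul, ← map_smul]
    congr 1
    simp only [pj, mul_sub, sub_mul, rf_mul_rf, O.cd, H4.sy d c]
    match_scalars <;> field_simp
  · rw [← map_mul, d2, map_smul, map_one]
  · rw [Frm.adj_add, H4.adj_smul', Frm.adj_mul, adj_em, adj_em, adj_em, d1, H4.adj_jj, B.adj_sub,
      H4.adj_rf, H4.adj_rf, em_comm hjl.symm, ← neg_sub (rf B d c), map_neg, map_neg, neg_mul,
      smul_neg, neg_add]

theorem em_T (i : Fin t) (s : GL (Fin 4) F) : (emG i s : GG 4 t F) ∈ TT 4 t F :=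
  InA.mem_T (i := i) (by omega) ⟨s, rfl⟩

theorem pair_eq (i j : Fin t) (s : GL (Fin 4) F) :
    (emG i s * (emG j s)⁻¹ : GG 4 t F) = ⁅emG i s, fperm F 4 (Equiv.swap i j)⁆ := by
  have e := cj_fperm_tl (F := F) (Equiv.swap i j) i (s : Mk 4 F)
  rw [Equiv.swap_apply_left] at e
  generalize fperm F 4 (Equiv.swap i j) = τ at e ⊢
  rw [← show τ * emG i s * τ⁻¹ = emG j s from Units.ext e]
  group

theorem jobO4M : JobO4M.{u} := by
  intro F _ _ t B M Q H h ht h1 h2
  have H4 : O4 B := H.toO4E.toO4L.toO4K.toO4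
  have two := H4.two
  refine ⟨H, ht, (h2.trans (omega_le _)).trans h.iso_le,
    h.gam (Or.inl two) (by omega) (by omega) h1, h.cyc (Or.inl two) (by omega) h1,
    fun i j _ s hs => h1 (Subgroup.mem_inf.2 ⟨mul_mem (em_T i s) (inv_mem (em_T j s)), ?_⟩),
    fun t3 => H.genr _ fun e he => ?_⟩
  · rw [pair_eq, omegaGL_comm]
    exact Subgroup.commutator_mem_commutator (mem_iso h two (emG_mem_Iso hs i))
      (mem_iso h two (B.fperm_mem_Iso _))
  · obtain ⟨s, -, hs⟩ := H.rlI e he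
    refine ⟨s, mem_Gam_of (by omega) h1 fun i => ?_, hs⟩
    obtain ⟨j, l, h3, h4, h5⟩ : ∃ j l : Fin t, i ≠ j ∧ i ≠ l ∧ j ≠ l := by
      classical
      obtain ⟨j, hj, l, hl, e⟩ := Finset.one_lt_card.1 (show 1 < (Finset.univ.erase i).card by
        rw [Finset.card_erase_of_mem (Finset.mem_univ i)]; simp; omega)
      exact ⟨j, l, (Finset.ne_of_mem_erase hj).symm, (Finset.ne_of_mem_erase hl).symm, e⟩
    obtain ⟨J, j1, j2, j3⟩ := exists_J H h5
    obtain ⟨r1, r2⟩ := root (p := em i ((B.f e e)⁻¹ • rf B e e)) (by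
      rw [← map_mul, smul_mul_assoc, mul_smul_comm, rf_mul_rf, inv_smul_smul₀ he]) j1
      (j3 i h3 h4 _).symm
    obtain ⟨g, hg, e1⟩ : In (B.pow t).Iso (1 - em i ((B.f e e)⁻¹ • rf B e e) +
        em i ((B.f e e)⁻¹ • rf B e e) * J) := in_Iso_of (by
      rw [Frm.adj_add, Frm.adj_sub, Frm.adj_one, Frm.adj_mul, adj_em, j2, H4.adj_smul, H4.adj_rf,
        neg_mul, ← j3 i h3 h4, ← sub_eq_add_neg, r1])
    have e2 : emG i s = g * g := Units.ext (by
      rw [Units.val_mul, e1, r2, coe_emG, hs, rl, map_sub, map_one, ← map_add, ← add_smul,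
        ← two_mul, div_eq_mul_inv])
    exact e2 ▸ sq_mem h ht (mem_iso h two hg)

end H44.O4M
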