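/- O7 tower, slot Col: colouring by walks. -/
import Cfsg.Agent.H31.O7A

set_option autoImplicit false

namespace H44.O7Col

open H56 QuadraticMap Module H31.O7

universe u

variable {K : Type u} [Field K] {V : Type u} [AddCommGroup V] [Module K V] {Q : QuadraticForm K V}
  {Φ : Set V} {x y z : V}

open Classical in
/-- The parity of an edge. -/
noncomputable def ep (Q : QuadraticForm K V) (x y : V) : ZMod 2 := if cc Q x y = 2 then 1 else 0

theorem ep_pos (h : cc Q x y = 2) : ep Q x y = 1 := if_pos h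
theorem ep_neg (h : cc Q x y ≠ 2) : ep Q x y = 0 := if_neg h
theorem ep_congr {a b : V} (h : cc Q x y = cc Q a b) : ep Q x y = ep Q a b := by rw [ep, h, ep]

/-- Walks to `z` with their parity. -/
def Wk (Q : QuadraticForm K V) (Φ : Set V) (z : V) : ℕ → V → ZMod 2 → Prop
  | 0, x, b => x = z ∧ b = 0
  | n + 1, x, b => ∃ y ∈ Φ, ∃ c, cc Q x y ≠ 0 ∧ Wk Q Φ z n y c ∧ b = ep Q x y + c

/-- The hypotheses. -/
structure Hy (Q : QuadraticForm K V) (Φ : Set V) : Prop extends RS Q Φ where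
  val : ∀ x ∈ Φ, ∀ y ∈ Φ, cc Q x y = 0 ∨ cc Q x y = 1 ∨ cc Q x y = 2 ∨ Par K x y
  tri : ∀ x ∈ Φ, ∀ y ∈ Φ, ∀ z ∈ Φ, cc Q x y = 2 → cc Q x z ≠ 0 → cc Q y z ≠ 0 →
    (cc Q x z = 2 ↔ cc Q y z ≠ 2)

variable (H : Hy Q Φ)
include H

theorem triangle (hx : x ∈ Φ) (hy : y ∈ Φ) (hz : z ∈ Φ) (h1 : cc Q x y ≠ 0) (h2 : cc Q y z ≠ 0)
    (h3 : cc Q x z ≠ 0) : ep Q x y + ep Q y z = ep Q x z := by
  by_cases a : cc Q x y = 2
  · have := H.tri x hx y hy z hz a h3 h2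
    by_cases b : cc Q y z = 2
    · rw [ep_pos a, ep_pos b, ep_neg fun e => this.1 e b]; rfl
    · rw [ep_pos a, ep_neg b, ep_pos (this.2 b), add_zero]
  by_cases b : cc Q y z = 2
  · have := H.tri y hy z hz x hx b (by rwa [cc_comm]) (by rwa [cc_comm])
    rw [cc_comm y x, cc_comm z x] at this
    rw [ep_neg a, ep_pos b, ep_pos (by by_contra e; exact a (this.2 e)), zero_add]
  · rw [ep_neg a, ep_neg b, ep_neg fun c => a ((H.tri x hx z hz y hy c h1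
      (by rwa [cc_comm])).2 (by rwa [cc_comm])), add_zero]

theorem one_or_two (hx : x ∈ Φ) (hy : y ∈ Φ) (h1 : cc Q x y ≠ 0) (h2 : cc Q y z ≠ 0)
    (h3 : cc Q x z = 0) : cc Q x y = 1 ∨ cc Q x y = 2 := by
  rcases H.val x hx y hy with h | h | h | ⟨a, rfl⟩
  exacts [absurd h h1, .inl h, .inr h, absurd (by
    rw [cc_smul_left (fun e => H.ne _ hy (by simp [e])), h3]) h2]

theorem walk (hz : z ∈ Φ) (n : ℕ) : ∀ x ∈ Φ, ∀ b, Wk Q Φ z n x b → cc Q x z ≠ 0 → b = ep Q x z := by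
  have two := H.two
  have n12 : (1 : K) ≠ 2 := fun e => one_ne_zero (α := K) (by linear_combination -e)
  have n42 : (4 : K) ≠ 2 := fun e => two (by linear_combination e)
  induction n using Nat.strong_induction_on with
  | _ n ih =>
  intro u0 h0 b hw hc
  rcases n with _ | n
  · obtain ⟨rfl, rfl⟩ := hw
    rw [ep_neg (cc_self (H.ne _ h0) ▸ n42)]
  obtain ⟨u1, h1, b1, c01, hw, rfl⟩ := hw
  rcases n with _ | n
  · obtain ⟨rfl, rfl⟩ := hw
    rw [add_zero]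
  obtain ⟨u2, h2, b2, c12, hw, rfl⟩ := hw
  by_cases c02 : cc Q u0 u2 = 0
  swap
  · refine ih (n + 1) (by omega) u0 h0 _ ⟨u2, h2, b2, c02, hw, ?_⟩ hc
    rw [← add_assoc, triangle H h0 h1 h2 c01 c12 c02]
  rcases n with _ | n
  · obtain ⟨rfl, rfl⟩ := hw
    exact absurd c02 hc
  obtain ⟨u3, h3, b3, c23, hw, rfl⟩ := hw
  by_cases c13 : cc Q u1 u3 = 0
  swap
  · refine ih (n + 2) (by omega) u0 h0 _ ⟨u1, h1, _, c01, ⟨u3, h3, b3, c13, hw, rfl⟩, ?_⟩ hc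
    rw [← add_assoc (ep Q u1 u2), triangle H h1 h2 h3 c12 c23 c13]
  have e1 : cc Q u0 (refl Q u1 u2) = cc Q u0 u1 * cc Q u1 u2 := by
    rw [cc_comm, cc_refl (H.ne _ h1) (H.ne _ h2) (H.ne _ h0), cc_comm u2, c02, tau,
      polar_comm Q u2, (cc_eq_zero (H.ne _ h0) (H.ne _ h2)).1 c02, cc_comm u1 u0]
    ring
  have e2 : cc Q (refl Q u1 u2) u3 = cc Q u2 u3 := by
    rw [cc_refl (H.ne _ h1) (H.ne _ h2) (H.ne _ h3), c13, tau, polar_comm Q u3,
      (cc_eq_zero (H.ne _ h1) (H.ne _ h3)).1 c13]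
    ring
  refine ih (n + 2) (by omega) u0 h0 _ ⟨_, H.inv u1 h1 u2 h2, _, e1 ▸ mul_ne_zero c01 c12,
    ⟨u3, h3, b3, e2 ▸ c23, hw, rfl⟩, ?_⟩ hc
  rw [ep_congr e2, ← add_assoc]
  congr 1
  rcases one_or_two H h0 h1 c01 c12 c02 with a | a <;>
    rcases one_or_two H h2 h1 (by rwa [cc_comm]) (by rwa [cc_comm]) (by rwa [cc_comm])
      with d | d <;> rw [cc_comm] at d <;> rw [a, d] at e1
  · rw [ep_neg (a ▸ n12), ep_neg (d ▸ n12), ep_neg (by rw [e1, one_mul]; exact n12), add_zero]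
  · rw [ep_neg (a ▸ n12), ep_pos d, ep_pos (by rw [e1, one_mul]), zero_add]
  · rw [ep_pos a, ep_neg (d ▸ n12), ep_pos (by rw [e1, mul_one]), add_zero]
  · rw [ep_pos a, ep_pos d, ep_neg (by rw [e1]; norm_num; exact n42)]; rfl

theorem exists_walk (hz : z ∈ Φ) {g : O Q} (hg : g ∈ reflGroup Q Φ) :
    ∃ n, Wk Q Φ z n (g z) 0 := by
  induction hg using reflGroup_induction with
  | h1 => exact ⟨0, rfl, rfl⟩
  | hmul w hw h0 g hg ih =>
    obtain ⟨n, hn⟩ := ih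
    have h1 := H.map hg hz
    rw [O.mul_apply]
    by_cases c : cc Q w (g z) = 0
    · rw [refl_apply, (cc_eq_zero h0 (H.ne _ h1)).1 c, mul_zero, zero_smul, sub_zero]
      exact ⟨n, hn⟩
    have e : cc Q (refl Q w (g z)) w = cc Q w (g z) := by
      rw [← cc_map (refl Q w), refl_refl, refl_apply_self h0, ← neg_one_smul K w,
        cc_smul_right (neg_ne_zero.2 one_ne_zero), cc_comm]
    refine ⟨n + 2, w, hw, _, e ▸ c, ⟨_, h1, 0, c, hn, rfl⟩, ?_⟩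
    rw [ep_congr e, add_zero, CharTwo.add_self_eq_zero]

theorem cc_ne_two (hz : z ∈ Φ) {g : O Q} (hg : g ∈ reflGroup Q Φ) : cc Q (g z) z ≠ 2 := fun e => by
  obtain ⟨n, hn⟩ := exists_walk H hz hg
  have := walk H hz n _ (H.map hg hz) 0 hn (e ▸ H.two)
  rw [ep_pos e] at this
  exact zero_ne_one this

omit H in
theorem jobCol : JobCol.{u} := by
  intro K _ _ V _ _ _ Q Φ R h1 h2
  have H : Hy Q Φ := ⟨R, h1, h2⟩
  obtain ⟨z, hz⟩ := R.nonempty
  have sub : {v | ∃ g ∈ reflGroup Q Φ, g z = v} ⊆ Φ := by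
    rintro _ ⟨g, hg, rfl⟩
    exact R.map hg hz
  have inv : Inv Q Φ {v | ∃ g ∈ reflGroup Q Φ, g z = v} := by
    rintro u hu _ ⟨g, hg, rfl⟩
    exact ⟨refl Q u * g, mul_mem (refl_mem_reflGroup hu) hg, rfl⟩
  have ne : ({v | ∃ g ∈ reflGroup Q Φ, g z = v} : Set V).Nonempty := ⟨z, 1, one_mem _, rfl⟩
  have n0 := R.ne z hz
  refine ⟨_, Q z, sub, inv, ⟨R.two, R.nd, R.dim, n0, ?_, fun u hu => inv u (sub hu), ne,
    R.irr _ sub ne inv⟩, ?_⟩
  · rintro _ ⟨g, -, rfl⟩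
    exact g.map_Q z
  rintro _ ⟨g, hg, rfl⟩ _ ⟨k, hk, rfl⟩
  rcases h1 _ (R.map hg hz) _ (R.map hk hz) with h | h | h | ⟨a, h⟩
  · exact .inl ((cc_eq_zero (by rwa [O.map_Q]) (by rwa [O.map_Q])).1 h)
  · rw [cc, O.map_Q, O.map_Q, div_eq_one_iff_eq (mul_ne_zero n0 n0), ← pow_two,
      sq_eq_sq_iff_eq_or_eq_neg] at h
    exact .inr (h.imp_right .inl)
  · refine absurd ?_ (cc_ne_two H hz (mul_mem (inv_mem hk) hg))
    rw [← cc_map k, ← O.mul_apply, mul_inv_cancel_left, h]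
  · have := congrArg Q h
    rw [Q_smul, O.map_Q, O.map_Q] at this
    rcases mul_self_eq_one_iff.1 (mul_right_cancel₀ n0 (this.symm.trans (one_mul _).symm)) with
      rfl | rfl
    · exact .inr (.inr (.inr (.inl (by rw [h, one_smul]))))
    · exact .inr (.inr (.inr (.inr (by rw [h, neg_one_smul]))))

end H44.O7Col
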