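/- Tower SG, job U: the diagonal operators. -/
import Cfsg.Agent.H53.SGSpec

set_option autoImplicit false

namespace H44.Sg
open Finsupp H53.SG
open scoped Classical

universe v

section ops
variable (K : Type v) [Field K]

/-- The shift by `j`. -/
def sh (j : ℤ) : Module.End K (ℤ → K) := LinearMap.funLeft K K (· + j)

/-- The difference operator. -/
def dl : Module.End K (ℤ → K) := sh K 1 - 1

variable {K}

theorem sh_apply (j : ℤ) (g : ℤ → K) (x : ℤ) : sh K j g x = g (x + j) := rfl

theorem sh_mul (i j : ℤ) : sh K i * sh K j = sh K (i + j) := by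
  ext1 g
  funext x
  simp [sh_apply, add_assoc]

theorem sh_zero : sh K 0 = 1 := by
  ext1 g
  funext x
  simp [sh_apply]

theorem sh_pow (j : ℕ) : sh K 1 ^ j = sh K j := by
  induction j with
  | zero => simp [sh_zero]
  | succ j ih => rw [pow_succ, ih, sh_mul, Nat.cast_succ]

theorem sh_comm (j : ℤ) : Commute (sh K j) (dl K) :=
  Commute.sub_right (by rw [Commute, SemiconjBy, sh_mul, sh_mul, add_comm]) (Commute.one_right _)

theorem dl_pow {p : ℕ} [CharP K p] (hp : p.Prime) (i : ℕ) :
    dl K ^ p ^ i = sh K (p ^ i : ℕ) - 1 := by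
  have := Fact.mk hp
  have : CharP (Module.End K (ℤ → K)) p :=
    charP_of_injective_algebraMap (algebraMap K _).injective p
  rw [dl, sub_pow_char_pow_of_commute _ _ (Commute.one_right _), sh_pow, one_pow]

/-- A shift by `± j` lowers the order by `j`, if `sh j - 1 = dl ^ j`. -/
theorem ord_step {j k l : ℕ} (h : dl K ^ j = sh K j - 1) (hl : k ≤ l + j) {g : ℤ → K}
    (hg : (dl K ^ k) g = 0) {d : ℤ} (hd : d = j ∨ d = -j) : (dl K ^ l) (sh K d g - g) = 0 := by
  have k0 : (dl K ^ l) ((dl K ^ j) g) = 0 := by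
    obtain ⟨i, hi⟩ := Nat.exists_eq_add_of_le' hl
    rw [← Module.End.mul_apply, ← pow_add, hi, pow_add, Module.End.mul_apply, hg, map_zero]
  rcases hd with rfl | rfl
  · simpa [h] using k0
  have : sh K (-j) g - g = -sh K (-j) ((dl K ^ j) g) := by
    rw [h, ← Module.End.mul_apply, mul_sub, sh_mul, neg_add_cancel, sh_zero]
    simp
  rw [this, map_neg, ← Module.End.mul_apply, ← ((sh_comm _).pow_right l).eq, Module.End.mul_apply,
    k0, map_zero, neg_zero]

theorem per {p : ℕ} [CharP K p] (hp : p.Prime) {i k : ℕ} (h : k ≤ p ^ i) {g : ℤ → K}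
    (hg : (dl K ^ k) g = 0) (x y : ℤ) : g (x + y * (p : ℤ) ^ i) = g x := by
  have := ord_step (l := 0) (dl_pow hp i) (by omega) hg (.inl rfl)
  have h1 : Function.Periodic g ((p : ℤ) ^ i) := fun x => by
    simpa [sh_apply, sub_eq_zero] using congrFun this x
  exact h1.int_mul y x

/-- The cubic binomial. -/
def bb (x : ℤ) : ℤ := (x ^ 3 - x) / 6

theorem six_bb (x : ℤ) : 6 * bb x = x ^ 3 - x := by
  refine Int.mul_ediv_cancel' ((ZMod.intCast_zmod_eq_zero_iff_dvd _ 6).1 ?_)
  push_cast
  generalize (x : ZMod 6) = y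
  revert y
  decide

theorem ord_bb : (dl K ^ 4) (fun x => (bb x : K)) = 0 := by
  funext x
  have : bb (x + 1 + 1 + 1 + 1) - 4 * bb (x + 1 + 1 + 1) + 6 * bb (x + 1 + 1) - 4 * bb (x + 1) +
      bb x = 0 := mul_left_cancel₀ (show (6 : ℤ) ≠ 0 by norm_num) (by
    linear_combination six_bb (x + 1 + 1 + 1 + 1) - 4 * six_bb (x + 1 + 1 + 1) +
      6 * six_bb (x + 1 + 1) - 4 * six_bb (x + 1) + six_bb x)
  have := congrArg (Int.cast (R := K)) this
  push_cast at this
  simp only [pow_succ, pow_zero, dl, Module.End.mul_apply, LinearMap.sub_apply,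
    Module.End.one_apply, Pi.sub_apply, map_sub, sh_apply, Pi.zero_apply]
  linear_combination this

theorem ord_cast : (dl K ^ 2) (fun x => (x : K)) = 0 := by
  funext x
  simp only [pow_succ, pow_zero, dl, Module.End.mul_apply, LinearMap.sub_apply,
    Module.End.one_apply, Pi.sub_apply, map_sub, sh_apply, Pi.zero_apply]
  push_cast
  ring

end ops

variable {e n : ℕ} {K : Type v} [Field K]

theorem fd_zero (ω : Vr e n → ℕ) (k : ℕ) : FD ω k (fun _ : Mon e n => (0 : K)) := by
  induction k using Nat.strong_induction_on with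
  | _ k ih =>
  cases k with
  | zero => rw [FD]; rfl
  | succ k =>
    rw [FD]
    intro v
    simpa using ih (k - ω v) (by omega)

theorem fd_comp {p : ℕ} [CharP K p] (hp : p.Prime) {ω : Vr e n → ℕ} {h : Mon e n → ℤ}
    {d : Vr e n → ℤ} (hh : ∀ m v, h (m + single v 1) = h m + d v)
    (hd : ∀ v, d v = 0 ∨ (ω v = 0 ∧ (d v = 1 ∨ d v = -1)) ∨ (ω v = p - 1 ∧ (d v = p ∨ d v = -p)))
    (k : ℕ) (g : ℤ → K) (hg : (dl K ^ k) g = 0) : FD ω k fun m => g (h m) := by
  induction k using Nat.strong_induction_on generalizing g with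
  | _ k ih =>
  cases k with
  | zero =>
    rw [FD]
    funext m
    exact congrFun hg _
  | succ k =>
    rw [FD]
    intro v
    simp only [hh]
    rcases hd v with h0 | ⟨h1, h2⟩ | ⟨h1, h2⟩
    · simpa [h0] using fd_zero ω (k - ω v)
    · exact ih _ (by omega) (sh K (d v) g - g)
        (ord_step (j := 1) (by simp [dl]) (by omega) hg (by simpa using h2))
    · have := hp.one_lt
      exact ih _ (by omega) (sh K (d v) g - g)
        (ord_step (j := p) (by simpa using dl_pow (K := K) hp 1) (by omega) hg h2)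

/-- The weight function. -/
def hw (P : ℤ) (a b : ZMod (e * n)) (η : ZMod (e * n) → ℕ) : ℤ :=
  η a - η b + P * (η (a + 1) - η (b + 1))

/-- Its increments. -/
noncomputable def dw (P : ℤ) (a b t : ZMod (e * n)) : ℤ :=
  (if t = a then 1 else 0) - (if t = b then 1 else 0) +
    P * ((if t = a + 1 then 1 else 0) - if t = b + 1 then 1 else 0)

theorem eta_add (m : Mon e n) (v : Vr e n) (j : ℕ) (t : ZMod (e * n)) :
    eta (m + single v j) t = eta m t + if v.2 = t then j else 0 := by
  obtain ⟨k, s⟩ := v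
  cases k <;> by_cases h : s = t <;> simp [eta, h] <;> ring

theorem hw_add (P : ℤ) (a b : ZMod (e * n)) (m : Mon e n) (v : Vr e n) (j : ℕ) :
    hw P a b (eta (m + single v j)) = hw P a b (eta m) + j * dw P a b v.2 := by
  simp only [hw, dw, eta_add]
  push_cast
  split_ifs <;> ring

theorem cl_succ_ne (he : 2 ≤ e) {a b : ZMod (e * n)} (h : cl a = cl b) : a + 1 ≠ b := fun l => by
  have := Fact.mk (show 1 < e from he)
  rw [← l, cl_add, cl_one] at h
  exact one_ne_zero (left_eq_add.1 h)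

theorem exists_third [NeZero (e * n)] (hn : 3 ≤ n) (a b : ZMod (e * n)) :
    ∃ c, c ≠ a ∧ c ≠ b ∧ cl c = cl a := by
  have e0 : 0 < e := Nat.pos_of_mul_pos_right (NeZero.pos (e * n))
  have k : ∀ j : ℕ, 0 < j → j < 3 → ((e * j : ℕ) : ZMod (e * n)) ≠ 0 := fun j h1 h2 l => by
    have := Nat.le_of_dvd h1 (Nat.dvd_of_mul_dvd_mul_left e0 ((ZMod.natCast_eq_zero_iff _ _).1 l))
    omega
  have c : ∀ j : ℕ, cl (a + ((e * j : ℕ) : ZMod (e * n))) = cl a := fun j => by
    rw [cl_add, cl_natCast]; simp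
  by_cases h : a + ((e * 1 : ℕ) : ZMod (e * n)) = b
  · refine ⟨_, fun l => k 2 (by omega) (by omega) (add_eq_left.1 l), fun l => ?_, c 2⟩
    rw [← h, add_right_inj, show e * 2 = e * 1 + e * 1 by ring, Nat.cast_add] at l
    exact k 1 (by omega) (by omega) (add_eq_left.1 l)
  · exact ⟨_, fun l => k 1 (by omega) (by omega) (add_eq_left.1 l), h, c 1⟩

theorem car_hw {p : ℕ} {η δ w : ZMod (e * n) → ℕ} (h : Car p η δ w) {a b : ZMod (e * n)}
    (c : cl a = cl b) : hw 0 a b η = w b - w a + (w (a + 1) - w (b + 1)) * (p : ℤ) ^ 1 ∧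
      hw p a b η = w b - w a + (w (a + 1 + 1) - w (b + 1 + 1)) * (p : ℤ) ^ 2 := by
  have k : ∀ t, (η t : ℤ) + w t = δ t + p * w (t + 1) := fun t => by exact_mod_cast h.eq t
  have d1 : (δ a : ℤ) = δ b := congrArg _ (h.per _ _ c)
  have d2 : (δ (a + 1) : ℤ) = δ (b + 1) := congrArg _ (h.per _ _ (by rw [cl_add, cl_add, c]))
  constructor
  · rw [hw]; linear_combination k a - k b + d1
  · rw [hw]; linear_combination k a - k b + d1 + p * (k (a + 1) - k (b + 1) + d2)

theorem bb_small {x y : ℕ} (hx : x ≤ 1) (hy : y ≤ 1) : bb (x - y) = 0 := by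
  interval_cases x <;> interval_cases y <;> rfl

theorem jobU : JobU.{v} := by
  intro p e n r _ K _ _ c D hp hn hS hM a b ab cab
  rcases hM with ⟨rfl, hM⟩ | ⟨rfl, hM⟩
  · obtain ⟨t, ta, tb, ct⟩ := exists_third hn a b
    have st : 2 ≤ e → ∀ m v, cl v.2 = cl a → ((hw 0 a t (eta (m + single v p)) : ℤ) : K) =
        (hw 0 a t (eta (m + single (nx v) 1)) : ℤ) := fun he m v hv => by
      simp [hw_add, dw, nx, cl_succ_ne he hv, cl_succ_ne he (hv.trans ct.symm)]
    have key : ∀ m, ((hw 0 a t (eta m) : ℤ) : K) = 0 → cE c a b m = 0 := fun m h =>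
      Finset.sum_eq_zero fun k _ => by
        split_ifs with m0
        · rfl
        refine mul_eq_zero_of_right _ (by_contra fun c0 => ?_)
        have l : m - single (k, a) 1 + single (k, a) 1 = m :=
          tsub_add_cancel_of_le (single_le_iff.2 (Nat.pos_of_ne_zero m0))
        have h1 := hM _ c0 a
        have h2 := hM _ c0 t
        rw [← l, hw_add] at h
        simp only [eta_add, if_neg ab.symm, if_neg tb.symm, add_zero] at h1 h2
        simp [hw, dw, h1, h2, ta.symm] at h
    refine ⟨fun m => ((hw 0 a t (eta m) : ℤ) : K), fd_comp hp (h := fun m => hw 0 a t (eta m))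
      (d := fun v => dw 0 a t v.2)
      (fun m v => by simp [hw_add]) (fun v => ?_) 2 _ ord_cast, fun m h => by simp [hw, hM m h], st,
      fun m _ => or_iff_not_imp_left.2 fun h => key m (not_not.1 h),
      fun he m _ => or_iff_not_imp_left.2 fun h => ⟨key m (not_not.1 h), fun v hv m0 => key _ ?_⟩⟩
    · by_cases h1 : v.2 = a
      · simp [dw, om, h1, ta.symm]
      by_cases h2 : v.2 = t
      · simp [dw, om, h2, ta, ct]
      · simp [dw, h1, h2]
    · rw [up, st he _ _ hv, tsub_add_cancel_of_le (single_le_iff.2 (Nat.pos_of_ne_zero m0)),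
        not_not.1 h]
  have b2 : ((bb 2 : ℤ) : K) ≠ 0 := by rw [show bb 2 = 1 from rfl]; simp
  by_cases he : 2 ≤ e
  · have pr : ∀ x y : ℤ, (bb (x + y * (p : ℤ) ^ 2) : K) = bb x :=
      per hp (Nat.pow_le_pow_left hp.two_le 2) ord_bb
    have n1 := cl_succ_ne he (a := a) rfl
    have n2 := cl_succ_ne he cab
    have n3 := cl_succ_ne he cab.symm
    have n4 := cl_succ_ne he (a := b) rfl
    refine ⟨fun m => (bb (hw p a b (eta m)) : K), fd_comp hp (h := fun m => hw p a b (eta m))
      (d := fun v => dw p a b v.2)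
      (fun m v => by simp [hw_add]) (fun v => ?_) 4 _ ord_bb, fun m h => ?_, fun _ m v hv => ?_,
      fun m ⟨η, δ, w, h1, h2, h3⟩ => .inl ?_, fun _ m h => .inl ?_⟩
    · have := Fact.mk (show 1 < e from he)
      by_cases h1 : v.2 = a
      · simp [dw, om, h1, ab, n1.symm, n3.symm]
      by_cases h2 : v.2 = b
      · simp [dw, om, h2, ab.symm, cab, n2.symm, n4.symm]
      by_cases h3 : v.2 = a + 1
      · simp [dw, om, h3, ab, n1, n2, cl_add, cl_one]
      by_cases h4 : v.2 = b + 1
      · simp [dw, om, h4, ab.symm, n3, n4, cl_add, cl_one, cab]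
      · simp [dw, h1, h2, h3, h4]
    · obtain ⟨δ, w, l⟩ := hS.car m h
      rw [(car_hw l cab).2, pr, bb_small (l.w1 _) (l.w1 _), Int.cast_zero]
    · simp [hw_add, dw, nx, cl_succ_ne he hv, cl_succ_ne he (hv.trans cab),
        (cl_succ_ne he hv.symm).symm, (cl_succ_ne he (hv.trans cab).symm).symm]
    · have k := fun t => congrArg (Nat.cast (R := ℤ)) (h3 t)
      have k1 := k a
      have k2 := k b
      have k3 := k (a + 1)
      have k4 := k (b + 1)
      simp only [ab, ab.symm, n1, n2, n3, n4, if_true, if_false, add_zero, Nat.cast_add,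
        Nat.cast_one] at k1 k2 k3 k4
      have := (car_hw h1 cab).2
      rwa [show hw p a b (eta m) = 2 + (w (a + 1 + 1) - w (b + 1 + 1)) * (p : ℤ) ^ 2 by
        rw [hw, h2] at this; rw [hw]; linear_combination this + k1 - k2 + p * (k3 - k4),
        pr]
    · have k1 := congrArg (Nat.cast (R := ℤ)) h.1
      have k2 := congrArg (Nat.cast (R := ℤ)) h.2
      push_cast at k1 k2
      rwa [show hw p a b (eta m) = 2 by rw [hw]; linear_combination k1 + p * k2]
  have pr : ∀ x y : ℤ, (bb (x + y * (p : ℤ) ^ 1) : K) = bb x :=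
    per hp (by rw [pow_one]; omega) ord_bb
  refine ⟨fun m => (bb (hw 0 a b (eta m)) : K), fd_comp hp (h := fun m => hw 0 a b (eta m))
    (d := fun v => dw 0 a b v.2)
    (fun m v => by simp [hw_add]) (fun v => ?_) 4 _ ord_bb, fun m h => ?_, fun h => absurd h he,
    fun m ⟨η, δ, w, h1, h2, h3⟩ => .inl ?_, fun h => absurd h he⟩
  · by_cases h1 : v.2 = a
    · simp [dw, om, h1, ab]
    by_cases h2 : v.2 = b
    · simp [dw, om, h2, ab.symm, cab]
    · simp [dw, h1, h2]
  · obtain ⟨δ, w, l⟩ := hS.car m h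
    rw [(car_hw l cab).1, pr, bb_small (l.w1 _) (l.w1 _), Int.cast_zero]
  · have k := fun t => congrArg (Nat.cast (R := ℤ)) (h3 t)
    have k1 := k a
    have k2 := k b
    simp only [ab, ab.symm, if_true, if_false, add_zero, Nat.cast_add, Nat.cast_one] at k1 k2
    have := (car_hw h1 cab).1
    rwa [show hw 0 a b (eta m) = 2 + (w (a + 1) - w (b + 1)) * (p : ℤ) ^ 1 by
      rw [hw, h2] at this; rw [hw]; linear_combination this + k1 - k2, pr]

end H44.Sg
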