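/- Tower SG, job WRAP: the normaliser of a Singer cycle is maximal in `SL_n(q)`. -/
import Cfsg.Agent.H53.SGSpec
import Cfsg.Agent.H62.C3Mat

set_option autoImplicit false

namespace H44.Sg
open Module H62 Cfsg.Geo

universe u

variable {F : Type u} [Field F] {K : Type u} [Field K] [Algebra F K] [FiniteDimensional F K]

theorem exists_mul {t : K} (ht : t ≠ 0) : ∃ e : K ≃ₗ[F] K, (∀ x, e x = t * x) ∧
    LinearMap.det (e : K →ₗ[F] K) = Algebra.norm F t := by
  obtain ⟨e, h1, h2⟩ := exists_kdil (F := F) (K := K) (V := K) (φ := (t - 1) • LinearMap.id)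
    (w := 1) (by simpa using ht)
  exact ⟨e, fun x => by rw [h1]; simp [sub_mul], by simpa using h2⟩

theorem exists_not_norm (h : 3 ≤ finrank F K) :
    ∃ e : K ≃ₗ[F] K, LinearMap.det (e : K →ₗ[F] K) = 1 ∧ ¬ NormK K e := by
  obtain ⟨k, hk⟩ := exists_not_mem_bot (F := F) (K := K) (V := K) (by omega)
  obtain ⟨φ, hφ⟩ := exists_dual_of_ne_zero (F := F) (one_ne_zero (α := K))
  obtain ⟨v, hv, v0⟩ := (Submodule.ne_bot_iff _).1 (LinearMap.ker_ne_bot_of_finrank_lt
    (f := φ.prod (φ ∘ₗ LinearMap.mul F K k)) (by simp; omega))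
  have v1 : φ v = 0 := congrArg Prod.fst (LinearMap.mem_ker.1 hv)
  have v2 : φ (k * v) = 0 := congrArg Prod.snd (LinearMap.mem_ker.1 hv)
  obtain ⟨e, he, hd⟩ := exists_kdil (F := F) (K := F) (φ := φ) (w := v) (by simp [v1])
  refine ⟨e, by simpa [v1] using hd, fun hn => ?_⟩
  obtain ⟨k', hk'⟩ := hn k
  have h1 := hk' v
  rw [he, he, smul_eq_mul, v1, v2, zero_smul, add_zero, add_zero, smul_eq_mul] at h1
  obtain rfl : k = k' := mul_right_cancel₀ v0 h1
  have h2 := hk' 1
  rw [he, he, hφ, one_smul, smul_add, add_right_inj, smul_eq_mul k v, Algebra.smul_def] at h2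
  exact hk (φ (k • (1 : K))) fun x => by
    rw [Algebra.smul_def, mul_right_cancel₀ v0 h2, smul_eq_mul]

theorem core (hC : H53.CK.Main.{u, u}) (hS : H53.SG.Main.{u, u}) [Fintype F]
    (hp : (finrank F K).Prime) (h5 : 5 ≤ finrank F K) {M : Subgroup (K ≃ₗ[F] K)}
    (h1 : ∀ e, NormK K e → LinearMap.det (e : K →ₗ[F] K) = 1 → e ∈ M)
    (h2 : ∀ e ∈ M, LinearMap.det (e : K →ₗ[F] K) = 1) {g : K ≃ₗ[F] K} (hg : g ∈ M)
    (hn : ¬ NormK K g) (e : K ≃ₗ[F] K) (he : LinearMap.det (e : K →ₗ[F] K) = 1) : e ∈ M := by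
  have : Finite K := Module.finite_of_finite F
  refine mem_of_det_eq_one ((hC F K M (hS F K M hp h5 h2 (fun t ht => ?_) ?_
    ⟨g, hg, fun a i h => hn fun k => ⟨k ^ Nat.card F ^ i, fun v => ?_⟩⟩)).resolve_left
      fun h => by omega) e he
  · obtain ⟨m, a, b⟩ := exists_mul (F := F) (t := t) (by rintro rfl; simp at ht)
    exact ⟨m, h1 m (.of_lin fun k v => by rw [a, a, smul_eq_mul, smul_eq_mul, mul_left_comm])
      (b.trans ht), a⟩
  · let σ := (FiniteField.frobeniusAlgEquivOfAlgebraic F K).toLinearEquiv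
    have hσ : ∀ x, σ x = x ^ Nat.card F := fun x => by rw [Nat.card_eq_fintype_card]; rfl
    have d0 := (LinearEquiv.isUnit_det' σ).ne_zero
    obtain ⟨a, ha⟩ := FiniteField.norm_surjective F K (LinearMap.det (σ : K →ₗ[F] K))⁻¹
    obtain ⟨m, b, c⟩ := exists_mul (F := F) (t := a) (by
      rintro rfl
      rw [Algebra.norm_zero] at ha
      exact inv_ne_zero d0 ha.symm)
    have l : ∀ x, (m * σ) x = a * x ^ Nat.card F := fun x => by rw [LinearEquiv.mul_apply, b, hσ]
    refine ⟨m * σ, h1 _ (fun k => ⟨k ^ Nat.card F, fun v => ?_⟩) ?_, a, l⟩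
    · rw [l, l, smul_eq_mul, smul_eq_mul, mul_pow, mul_left_comm]
    · rw [← LinearEquiv.coe_det, map_mul, Units.val_mul, LinearEquiv.coe_det, LinearEquiv.coe_det, c,
        ha, inv_mul_cancel₀ d0]
  · rw [h, h, smul_eq_mul, smul_eq_mul, mul_pow, mul_left_comm]

/-- Transport along a linear isomorphism. -/
def tr {V : Type*} [AddCommGroup V] [Module F V] (ε : K ≃ₗ[F] V) : (K ≃ₗ[F] K) ≃* (V ≃ₗ[F] V) where
  toFun e := ε.symm ≪≫ₗ e ≪≫ₗ ε
  invFun e := ε ≪≫ₗ e ≪≫ₗ ε.symm
  left_inv e := by ext; simp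
  right_inv e := by ext; simp
  map_mul' e e' := by ext; simp

theorem jobWrap : H53.SG.JobWrap.{u} := by
  intro hC hS F _ _ n hp h5 K hK
  have : Nonempty (Fin n) := ⟨⟨0, by omega⟩⟩
  obtain ⟨K', _, _, _, _, _, h0, h1, h2⟩ := exists_field_model hK
  have : FiniteDimensional F K' := Module.finite_of_finrank_pos (by omega)
  obtain ⟨v, hv⟩ := exists_ne (0 : Fin n → F)
  let ε : K' ≃ₗ[F] (Fin n → F) := LinearMap.linearEquivOfInjective
    ((LinearMap.toSpanSingleton K' _ v).restrictScalars F) (smul_left_injective K' hv) (by simp [h0])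
  have hε : ∀ k x : K', ε (k * x) = k • ε x := fun k x => mul_smul k x v
  have d : ∀ e, LinearMap.det (tr ε e : (Fin n → F) →ₗ[F] (Fin n → F)) =
      LinearMap.det (e : K' →ₗ[F] K') := fun e => LinearMap.det_conj _ ε
  have t : ∀ e x, tr ε e (ε x) = ε (e x) := fun e x => by simp [tr]
  have m : ∀ e, NormK K' (tr ε e) ↔ NormK K' e := fun e => forall_congr' fun k =>
    exists_congr fun k' => by
      rw [ε.surjective.forall]
      simp only [← hε, t, smul_eq_mul, ε.injective.eq_iff]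
  refine isMaximalIn_of_toLE (NormK K')
    (fun e => LinearMap.det (e : (Fin n → F) →ₗ[F] (Fin n → F)) = 1) mem_specialLinear_iff
    (fun g => and_congr (mem_subalgebraNormalizer_iff h1 h2 g) (mem_specialLinear_iff g)) ?_
    fun M hM hM' g hg hns e he => ?_
  · obtain ⟨e, a, b⟩ := exists_not_norm (F := F) (K := K') (by omega)
    exact ⟨tr ε e, (d e).trans a, (m e).not.2 b⟩
  obtain ⟨g, rfl⟩ := (tr ε).surjective g
  obtain ⟨e, rfl⟩ := (tr ε).surjective e
  exact core hC hS (h0 ▸ hp) (h0 ▸ h5) (M := M.comap (tr ε).toMonoidHom)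
    (fun e a b => hM _ ((m e).2 a) ((d e).trans b)) (fun e a => (d e).symm.trans (hM' _ a)) hg
    ((m g).not.1 hns) e ((d e).symm.trans he)

/-- The row S5636 from the two main theorems. -/
theorem s5636_of (hC : H53.CK.Main.{u, u}) (hS : H53.SG.Main.{u, u}) {F : Type u} [Field F]
    [Fintype F] (n : ℕ) (hn : 5 ≤ n) (r : ℕ) (hr : r.Prime)
    (K : Subalgebra F (Matrix (Fin n) (Fin n) F)) (hK : IsFieldSubalgebra r K) :
    IsMaximalIn (specialLinear (Fin n) F) (subalgebraNormalizer K ⊓ specialLinear (Fin n) F) := by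
  by_cases h : r < n
  · exact isMaximalIn_sl_field hr (by simpa) hK
  have : Nonempty (Fin n) := ⟨⟨0, by omega⟩⟩
  obtain ⟨K', _, _, _, _, _, h0, -⟩ := exists_field_model hK
  obtain ⟨v, hv⟩ := exists_ne (0 : Fin n → F)
  have := LinearMap.finrank_le_finrank_of_injective
    (f := (LinearMap.toSpanSingleton K' _ v).restrictScalars F) (smul_left_injective K' hv)
  obtain rfl : r = n := by simp [h0] at this; omega
  exact jobWrap hC hS F r hr hn K hK

end H44.Sg
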